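import Cfsg.Agent.H40.SecondMain
import Cfsg.Agent.H40.FirstMain
import Cfsg.Agent.H40.BlockDefect
import Cfsg.Agent.H41.InducedCentral

/-! Blocks of centralisers of `p`-elements and deficiency classes. -/

set_option autoImplicit false
set_option linter.unusedSectionVars false

open scoped ComplexConjugate

namespace Cfsg.Agent.H38

open Cfsg.Agent.H40 Cfsg.Agent.H23
open Cfsg.Agent.H41 (ResField omegaBar idemBar redZ groupAlgCenter)

variable {G : Type*} [Group G] [Finite G] {p : ℕ} [Fact p.Prime] {M : Ideal Cfsg.AlgInt}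
  [M.IsMaximal]

/-- An idempotent sum over a union of blocks with unit coefficient has a block with one. -/
theorem exists_block_coeffUnit (hM : Cfsg.IsPModular p M) {A : Set (Cfsg.IrrCharacter G)}
    (hA : BlockClosed M A) {g : G} (hg : ¬ Cfsg.MemLocalIdeal M (Cfsg.blockCoeff A g)) :
    ∃ ψ ∈ A, CoeffUnit M (Cfsg.blockOf M (ψ : G → ℂ)) g := by
  classical
  haveI := Fintype.ofFinite G
  by_contra hc
  push Not at hc
  apply hg
  let S : Finset (Cfsg.IrrCharacter G) := Finset.univ.filter (· ∈ A)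
  let φ : Cfsg.IrrCharacter G → Set (Cfsg.IrrCharacter G) := fun ψ => Cfsg.blockOf M (ψ : G → ℂ)
  have hsum : Cfsg.blockCoeff A g = ∑ b ∈ S.image φ, Cfsg.blockCoeff b g := by
    rw [blockCoeff_eq_sum, ← Finset.sum_fiberwise_of_maps_to (t := S.image φ) (g := φ)
      (fun ψ hψ => Finset.mem_image_of_mem φ hψ), Finset.mul_sum]
    refine Finset.sum_congr rfl fun b hb => ?_
    rw [blockCoeff_eq_sum]
    congr 1
    refine Finset.sum_congr ?_ fun _ _ => rfl
    obtain ⟨ψ, hψ, rfl⟩ := Finset.mem_image.1 hb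
    ext χ
    simp only [S, φ, Finset.mem_filter, Finset.mem_univ, true_and]
    constructor
    · rintro ⟨-, he⟩
      exact he ▸ Cfsg.Agent.H41.mem_blockOf_self χ
    · intro hχ
      refine ⟨hA _ _ hχ (Finset.mem_filter.1 hψ).2, ?_⟩
      exact (Cfsg.Agent.H41.blockOf_eq_of_sameBlock hχ).symm
  rw [hsum]
  refine memLocalIdeal_sum _ _ fun b hb => ?_
  obtain ⟨ψ, hψ, rfl⟩ := Finset.mem_image.1 hb
  by_contra hn
  exact hc ψ (Finset.mem_filter.1 hψ).2
    ⟨Cfsg.Agent.H41.blockCoeff_mem (Cfsg.Agent.H41.isPBlock_blockOf ψ) g, hn⟩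

/-- For `y` central in a defect group of `B`, some block of `C(y)` inducing `B` has at least the
same defect. -/
theorem exists_inducing_block_defect_le (hM : Cfsg.IsPModular p M)
    {B : Set (Cfsg.IrrCharacter G)} (hB : Cfsg.IsPBlock M B) {D : Subgroup G}
    (hBD : Cfsg.IsDefectGroup p M B D) {y : G} (hy : ∃ j, orderOf y = p ^ j)
    (hyD : y ∈ D) (hyC : y ∈ Subgroup.centralizer (D : Set G)) :
    ∃ b, Cfsg.IsInducedBlock M (Subgroup.centralizer ({y} : Set G)) b B ∧
      Cfsg.blockDefect p B ≤ Cfsg.blockDefect p b := by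
  classical
  have := Cfsg.Agent.H41.IsPModular.charP hM
  obtain ⟨j, hj⟩ := id hy
  have hP : IsPGroup p (Subgroup.zpowers y) :=
    IsPGroup.of_card (n := j) (by rw [Nat.card_zpowers, hj])
  have hC : Subgroup.centralizer ((Subgroup.zpowers y : Subgroup G) : Set G) =
      Subgroup.centralizer ({y} : Set G) := by
    rw [Subgroup.zpowers_eq_closure, Subgroup.centralizer_closure]
  have hPH : Subgroup.zpowers y ≤ Subgroup.centralizer ({y} : Set G) :=
    Subgroup.zpowers_le.2 (by simp [Subgroup.mem_centralizer_singleton_iff])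
  have hHN : Subgroup.centralizer ({y} : Set G) ≤
      Subgroup.normalizer ((Subgroup.zpowers y : Subgroup G) : Set G) :=
    hC ▸ Subgroup.centralizer_le_normalizer _
  let Br := brauerCenterHom (R := ResField M) (p := p) hP hC.le hHN
  have hA := blockClosed_inducingSet (M := M) y B
  let eA := redZ M (setLocIdem hA)
  have homega : ∀ ξ : Cfsg.IrrCharacter (Subgroup.centralizer ({y} : Set G)),
      omegaBar M ξ (Br (idemBar hB)) = omegaBar M ξ eA := by
    intro ξ
    obtain ⟨B', hB'⟩ := exists_isInducedBlock_centralizer hM hy (Cfsg.Agent.H41.isPBlock_blockOf ξ)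
    obtain ⟨χ', hχ'⟩ := Cfsg.Agent.H41.IsPBlock.nonempty hB'.2.1
    show omegaBar M ξ (brauerZ (Subgroup.zpowers y) (Subgroup.centralizer ({y} : Set G)) hHN (idemBar hB)) = _
    rw [← omegaBar_restrictZ_eq_brauerZ hM hP hPH hHN,
      omegaBar_restrictZ_of_isInducedBlock hB' (Cfsg.Agent.H41.mem_blockOf_self ξ) hχ',
      Cfsg.Agent.H41.omegaBar_idemBar hB, omegaBar_setLocIdem]
    refine if_congr ⟨fun h => ?_, fun h => ?_⟩ rfl rfl
    · show Cfsg.IsInducedBlock M _ _ B
      exact Cfsg.Agent.H41.block_eq_of_mem_of_mem hB'.2.1 hB hχ' h ▸ hB'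
    · exact isInducedBlock_unique hB' h ▸ hχ'
  have heq : Br (idemBar hB) = eA := by
    have hnil : IsNilpotent (Br (idemBar hB) - eA) :=
      Cfsg.Agent.H41.isNilpotent_of_forall_omegaBar fun ξ => by rw [map_sub, homega, sub_self]
    refine eq_of_isNilpotent_sub_of_isIdempotentElem ?_ ?_ hnil
    · exact (Cfsg.Agent.H41.isIdempotentElem_idemBar hB).map Br
    · exact (isIdempotentElem_setLocIdem hA).map (redZ M)
  obtain ⟨g, hg, hDg⟩ := isDefectGroup_iff.1 hBD
  have hgy : g ∈ Subgroup.centralizer ({y} : Set G) :=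
    Subgroup.mem_centralizer_singleton_iff.2
      (Subgroup.mem_centralizer_singleton_iff.1 (hDg.1 hyD)).symm
  let g' : Subgroup.centralizer ({y} : Set G) := ⟨g, hgy⟩
  have hDC : D ≤ Subgroup.centralizer ({y} : Set G) := fun d hd =>
    Subgroup.mem_centralizer_singleton_iff.2 (Subgroup.mem_centralizer_iff.1 hyC d hd)
  have hcoeff : ¬ Cfsg.MemLocalIdeal M (Cfsg.blockCoeff (inducingSet M y B) g') := by
    have hne := (Cfsg.Agent.H41.coeff_idemBar_ne_zero_iff hB g).2 ⟨hg.1, hg.2.1⟩
    have h0 := congrArg (fun z : groupAlgCenter (ResField M) (Subgroup.centralizer ({y} : Set G)) =>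
      (z : MonoidAlgebra (ResField M) (Subgroup.centralizer ({y} : Set G))).coeff g') heq
    simp only [Br, eA] at h0
    rw [coe_brauerCenterHom, coeff_brauerMap_of_mem _ (show (g' : G) ∈ _ from hC.symm ▸ hgy),
      Cfsg.Agent.H41.coeff_redZ] at h0
    intro hmem
    apply hne
    rw [h0, ← Cfsg.Agent.H41.memLocalIdeal_coe_iff, coe_coeff_setLocIdem]
    exact hmem
  obtain ⟨ψ, hψ, hunit⟩ := exists_block_coeffUnit hM hA hcoeff
  refine ⟨_, hψ, ?_⟩
  have hb := Cfsg.Agent.H41.isPBlock_blockOf (M := M) ψ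
  obtain ⟨E, hE⟩ := exists_isDefectGroup (p := p) hM hb
  have hDg' : D.subgroupOf (Subgroup.centralizer ({y} : Set G)) ≤
      Subgroup.centralizer ({g'} : Set (Subgroup.centralizer ({y} : Set G))) := fun d hd =>
    Subgroup.mem_centralizer_singleton_iff.2 (Subtype.ext
      (Subgroup.mem_centralizer_singleton_iff.1 (hDg.1 (Subgroup.mem_subgroupOf.1 hd))))
  have hle := (classDefLE_defectGroup hM hb hunit hE _
    (hDg.2.1.of_equiv (Subgroup.subgroupOfEquivOfLe hDC).symm) hDg').card_le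
  rw [Nat.card_congr (Subgroup.subgroupOfEquivOfLe hDC).toEquiv, card_defectGroup hM hB hBD,
    card_defectGroup hM hb hE] at hle
  exact (Nat.pow_le_pow_iff_right (Fact.out : p.Prime).one_lt).1 hle

end Cfsg.Agent.H38
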