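import Mathlib
import Cfsg.Agent.H43.CoprimeExt

/-! Extendibility of invariant characters through the determinant (Gallagher). -/

set_option autoImplicit false

namespace Cfsg.Agent.H38

open Module

variable {G : Type*} [Group G] [Finite G] {N : Subgroup G} [hN : N.Normal]
variable {W : Type*} [AddCommGroup W] [Module ℂ W] [FiniteDimensional ℂ W]

/-- An invariant irreducible representation of `N` of degree prime to the index extends if its
determinant extends. -/
theorem exists_ext_of_det (σ : Representation ℂ N W) [σ.IsIrreducible]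
    (hinv : ∀ (g : G) (n : N), σ.character (H39.conjN g n) = σ.character n)
    (μ : G →* ℂˣ) (hμ : ∀ n : N, μ n = H43.detHom σ n)
    (hcop : Nat.Coprime N.index (finrank ℂ W)) :
    ∃ χ : G → ℂ, Cfsg.IsIrrCharacter G χ ∧ ∀ n : N, χ n = σ.character n := by
  classical
  haveI := H25.nontrivial_of_isIrreducible σ
  haveI : Fintype (G ⧸ N) := Fintype.ofFinite _
  obtain ⟨S, hS, hSmul, hSN⟩ := H39.exists_section_interSub σ hinv
  have hS1 : S 1 = 1 := by simpa using hSN 1
  have hα : ∀ g h : G, ∃ a : ℂˣ, S g * S h = H39.scalarU a * S (g * h) := fun g h =>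
    H39.exists_scalar_of_mem_interSub (hS (g * h))
      (by simpa using (H39.interSub σ).mul_mem (hS g) (hS h))
  choose α hα using hα
  have huniq : ∀ {g h : G} {a : ℂˣ}, S g * S h = H39.scalarU a * S (g * h) → α g h = a :=
    fun e => H39.scalarU_injective (mul_right_cancel ((hα _ _).symm.trans e))
  have hright : ∀ (g h : G) (k : N), α g (h * k) = α g h := by
    intro g h k
    refine huniq ?_
    rw [hSmul, ← mul_assoc, hα, mul_assoc, ← hSmul, mul_assoc g h]
  have hleft : ∀ (g h : G) (n : N), α (g * n) h = α g h := by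
    intro g h n
    refine huniq ?_
    have h1 := hS h (H39.conjN h⁻¹ n)
    simp only at h1
    rw [← H39.conjN_mul, mul_inv_cancel, H39.conjN_one] at h1
    rw [hSmul, mul_assoc, ← h1, ← mul_assoc, hα, mul_assoc, ← hSmul]
    congr 2
    simp [H39.conjN, mul_assoc]
  have hcoc : ∀ g h x : G, α g h * α (g * h) x = α h x * α g (h * x) := by
    intro g h x
    apply H39.scalarU_injective (W := W)
    have e1 : S g * S h * S x = H39.scalarU (α g h * α (g * h) x) * S (g * h * x) := by
      rw [hα, mul_assoc, hα, ← mul_assoc, ← map_mul]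
    have e2 : S g * (S h * S x) = H39.scalarU (α h x * α g (h * x)) * S (g * (h * x)) := by
      rw [hα h x, ← mul_assoc, ← H39.scalarU_comm, mul_assoc, hα, ← mul_assoc, ← map_mul]
    rw [← mul_assoc g] at e2
    exact mul_right_cancel ((e1.symm.trans (mul_assoc _ _ _)).trans e2)
  let F : G → ℂˣ := fun g => ∏ x : G ⧸ N, α g x.out
  have hF : ∀ g h, α g h ^ N.index * F (g * h) = F g * F h := by
    intro g h
    have hre : ∏ x : G ⧸ N, α g (h * x.out) = F g := by
      refine Fintype.prod_equiv (Equiv.mulLeft (h : G ⧸ N)) _ _ fun x => ?_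
      have hmem : ((h : G ⧸ N) * x).out⁻¹ * (h * x.out) ∈ N := by
        rw [← QuotientGroup.eq, QuotientGroup.out_eq', QuotientGroup.mk_mul, QuotientGroup.out_eq']
      have e := hright g ((h : G ⧸ N) * x).out ⟨_, hmem⟩
      simpa using e
    rw [Subgroup.index_eq_card, Nat.card_eq_fintype_card, ← Finset.card_univ, ← Finset.prod_const,
      ← Finset.prod_mul_distrib, Finset.prod_congr rfl fun x _ => hcoc g h x.out,
      Finset.prod_mul_distrib, hre]
    exact mul_comm _ _
  have hFn : ∀ n : N, F n = 1 := fun n => Finset.prod_eq_one fun x _ => by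
    have := hleft 1 x.out n
    rw [one_mul] at this
    rw [this]
    exact huniq (by simp [hS1])
  let D : G → ℂˣ := fun g => H43.detU (S g) * (μ g)⁻¹
  have hD : ∀ g h, α g h ^ finrank ℂ W * D (g * h) = D g * D h := by
    intro g h
    have := congrArg H43.detU (hα g h)
    rw [map_mul, map_mul, H43.detU_scalarU] at this
    simp only [D]
    rw [← mul_assoc, ← this, map_mul, mul_inv, mul_mul_mul_comm]
  have hDn : ∀ n : N, D n = 1 := fun n => by
    simp only [D]
    rw [hSN, show H43.detU (H39.sigmaU σ n) = H43.detHom σ n from rfl, hμ, mul_inv_cancel]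
  obtain ⟨u, v, huv⟩ : ∃ u v : ℤ, u * (N.index : ℤ) + v * ((finrank ℂ W : ℕ) : ℤ) = 1 :=
    Int.isCoprime_iff_gcd_eq_one.mpr (by rw [Int.gcd_natCast_natCast]; exact hcop)
  let E : G → ℂˣ := fun g => F g ^ u * D g ^ v
  have hE : ∀ g h, α g h * E (g * h) = E g * E h := by
    intro g h
    have h1 := congrArg (fun z : ℂˣ => z ^ u) (hF g h)
    have h2 := congrArg (fun z : ℂˣ => z ^ v) (hD g h)
    simp only [mul_zpow, ← zpow_natCast, ← zpow_mul] at h1 h2
    calc α g h * E (g * h)
        = α g h ^ ((N.index : ℤ) * u + (finrank ℂ W : ℤ) * v) * E (g * h) := by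
          rw [show (N.index : ℤ) * u + (finrank ℂ W : ℤ) * v = 1 by linarith, zpow_one]
      _ = (α g h ^ ((N.index : ℤ) * u) * F (g * h) ^ u) *
            (α g h ^ ((finrank ℂ W : ℤ) * v) * D (g * h) ^ v) := by
          rw [zpow_add, mul_mul_mul_comm]
      _ = E g * E h := by rw [h1, h2, mul_mul_mul_comm]
  refine H39.exists_ext_of_hom σ
    (MonoidHom.mk' (fun g => H39.scalarU (E g)⁻¹ * S g) fun g h => ?_) fun n => ?_
  · symm
    rw [mul_assoc, ← mul_assoc (S g), ← H39.scalarU_comm, mul_assoc (H39.scalarU _) (S g), hα,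
      ← mul_assoc, ← mul_assoc, ← map_mul, ← map_mul]
    congr 2
    rw [← mul_inv, ← hE, mul_inv, mul_assoc, mul_comm (α g h)⁻¹, mul_inv_cancel_right]
  · show H39.scalarU (E n)⁻¹ * S n = _
    rw [show E n = 1 by simp [E, hFn, hDn], inv_one, map_one, one_mul, hSN]

/-- Gallagher: extendibility is extendibility of the determinant, for degree prime to the index. -/
theorem extendible_iff_det (ϑ : N → ℂ) (hϑ : Cfsg.IsIrrCharacter N ϑ)
    (hinv : ∀ (g : G) (n : N), ϑ ⟨g * n * g⁻¹, hN.conj_mem (n : G) n.2 g⟩ = ϑ n) (d : ℕ)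
    (hd : ϑ 1 = d) (hcop : Nat.Coprime N.index d) :
    (∃ χ : G → ℂ, Cfsg.IsIrrCharacter G χ ∧ (∀ n : N, χ n = ϑ n)) ↔
      ∃ μ : G → ℂ, Cfsg.IsCharacter G μ ∧ μ 1 = 1 ∧ ∀ n : N, μ n = Cfsg.detChar ϑ n := by
  constructor
  · rintro ⟨χ, hχ, hres⟩
    have hc := H26.isCharacter_of_irr hχ
    obtain ⟨f, hf, -⟩ := H43.exists_detHom hc
    refine ⟨_, (linear_of_hom f).1, (linear_of_hom f).2, fun n => ?_⟩
    rw [← (funext hres : (fun x : N => χ x) = ϑ)]
    have := congrFun (H43.detChar_comp N.subtype hc) n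
    simp only [Subgroup.coe_subtype] at this
    rw [this, hf]
  · rintro ⟨μ, hμ1, hμ2, hμ3⟩
    obtain ⟨m, σ, hσ, hchar⟩ := hϑ
    haveI := hσ
    obtain ⟨f, hf⟩ := exists_hom_of_linear hμ1 hμ2
    have hdim : finrank ℂ (Fin m → ℂ) = d := by
      have h := hd
      rw [← hchar, σ.char_one] at h
      exact_mod_cast h
    obtain ⟨χ, hχ, hres⟩ := exists_ext_of_det σ (fun g n => by rw [hchar]; exact hinv g n) f
      (fun n => Units.ext (by
        have := hμ3 n
        rw [← hchar, H43.detChar_eq, hf] at this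
        exact this))
      (hdim.symm ▸ hcop)
    exact ⟨χ, hχ, fun n => by rw [hres, hchar]⟩

end Cfsg.Agent.H38

namespace Cfsg.Agent.H38

/-- Exactly one extension has a prescribed determinant, for degree prime to the index. -/
theorem existsUnique_ext_det {G : Type*} [Group G] [Finite G] (N : Subgroup G) [N.Normal]
    (ϑ : N → ℂ) (hϑ : Cfsg.IsIrrCharacter N ϑ) (d : ℕ) (hd : ϑ 1 = d)
    (hcop : Nat.Coprime N.index d) (η : Cfsg.IrrCharacter G) (hη : ∀ n : N, η.1 n = ϑ n)
    (μ : G →* ℂˣ) (hμ : ∀ n : N, (μ n : ℂ) = Cfsg.detChar ϑ n) :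
    ∃! χ : G → ℂ, Cfsg.IsIrrCharacter G χ ∧ (∀ n : N, χ n = ϑ n) ∧
      Cfsg.detChar χ = fun g => (μ g : ℂ) := by
  classical
  haveI := Fintype.ofFinite G
  obtain ⟨f, hf, -⟩ := H43.exists_detHom (H26.irr_isCharacter η)
  have hdeg : ∀ χ : Cfsg.IrrCharacter G, (∀ n : N, χ.1 n = ϑ n) →
      Cfsg.charDegree χ.1 = d := fun χ h => by
    have h1 := h 1
    rw [hd, Subgroup.coe_one, H43.irr_charDegree_spec] at h1
    exact_mod_cast h1
  have hfN : ∀ n : N, f n = μ n := fun n => by
    apply Units.ext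
    have h := congrFun (H43.detChar_comp N.subtype (H26.irr_isCharacter η)) n
    simp only [Subgroup.coe_subtype, hf] at h
    rw [← h, hμ, funext hη]
  obtain ⟨u, v, huv⟩ : ∃ u v : ℤ, u * (d : ℤ) + v * (N.index : ℤ) = 1 :=
    Int.isCoprime_iff_gcd_eq_one.mpr (by rw [Int.gcd_natCast_natCast]; exact hcop.symm)
  set γ : G →* ℂˣ := μ / f with hγ
  have hγN : ∀ n ∈ N, γ n = 1 := fun n hn => by
    rw [hγ, MonoidHom.div_apply, show f n = μ n from hfN ⟨n, hn⟩, div_self']
  have hpow : ∀ (ν : G →* ℂˣ), (∀ n ∈ N, ν n = 1) → ∀ g, ν g ^ (N.index : ℤ) = 1 := fun ν h g => by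
    rw [zpow_natCast, ← map_pow]; exact h _ (N.pow_index_mem g)
  set χ₀ := H43.irrTwist η (γ ^ u) with hχ₀
  refine ⟨χ₀.1, ⟨χ₀.2, fun n => ?_, ?_⟩, ?_⟩
  · rw [hχ₀, H43.irrTwist_apply, MonoidHom.zpow_apply, hγN n n.2, one_zpow, Units.val_one,
      mul_one, hη]
  · rw [hχ₀, H43.detChar_irrTwist, hdeg η hη, hf]
    funext g
    simp only
    rw [← Units.val_pow_eq_pow_val, ← Units.val_mul]
    congr 1
    have h1 : γ g ^ (u * (d : ℤ)) = γ g := by
      have := congrArg (fun k => γ g ^ k) huv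
      simp only [zpow_one, zpow_add, mul_comm v] at this
      rwa [zpow_mul (γ g) (N.index : ℤ), hpow γ hγN, one_zpow, mul_one] at this
    rw [MonoidHom.zpow_apply, ← zpow_natCast, ← zpow_mul, h1, hγ, MonoidHom.div_apply,
      mul_div_cancel]
  · rintro χ ⟨hχ, hres, hdet⟩
    set χ' : Cfsg.IrrCharacter G := ⟨χ, hχ⟩
    have hres₀ : ∀ n : N, χ₀.1 n = ϑ n := fun n => by
      rw [hχ₀, H43.irrTwist_apply, MonoidHom.zpow_apply, hγN n n.2, one_zpow, Units.val_one,
        mul_one, hη]
    obtain ⟨ν, hνN, hν⟩ := H43.exists_hom_of_restrict_eq N χ' χ₀ ⟨ϑ, hϑ⟩ hres hres₀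
    have hν1 : ν = 1 := by
      refine MonoidHom.ext fun g => ?_
      have h0 : Cfsg.detChar χ₀.1 = fun g => (μ g : ℂ) := by
        rw [hχ₀, H43.detChar_irrTwist, hdeg η hη, hf]
        funext x
        simp only
        rw [← Units.val_pow_eq_pow_val, ← Units.val_mul]
        congr 1
        have h1 : γ x ^ (u * (d : ℤ)) = γ x := by
          have := congrArg (fun k => γ x ^ k) huv
          simp only [zpow_one, zpow_add, mul_comm v] at this
          rwa [zpow_mul (γ x) (N.index : ℤ), hpow γ hγN, one_zpow, mul_one] at this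
        rw [MonoidHom.zpow_apply, ← zpow_natCast, ← zpow_mul, h1, hγ, MonoidHom.div_apply,
          mul_div_cancel]
      rw [hν, H43.detChar_irrTwist, hdeg χ' hres, hdet] at h0
      have h1 : (μ g : ℂ) * (ν g : ℂ) ^ d = μ g := congrFun h0 g
      have h2 : ν g ^ (d : ℤ) = 1 := Units.ext (by
        rw [zpow_natCast, Units.val_pow_eq_pow_val, Units.val_one]
        exact mul_left_cancel₀ (μ g).ne_zero (h1.trans (mul_one _).symm))
      have h3 := congrArg (fun k => ν g ^ k) huv
      simp only [zpow_one, zpow_add, mul_comm u, mul_comm v] at h3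
      rw [zpow_mul, h2, zpow_mul, hpow ν hνN, one_zpow, one_zpow, one_mul] at h3
      simpa using h3.symm
    rw [hν, hν1]
    funext g
    simp [H43.irrTwist_apply, χ']

end Cfsg.Agent.H38
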