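import Cfsg.Agent.H56.Clifford
import Cfsg.Agent.H43.CharTools
import Cfsg.Agent.H25.IndRep

/-! An invariant character below an abelian chief factor. -/

set_option autoImplicit false

open scoped ComplexConjugate

namespace Cfsg.Agent.H38

variable {G : Type*} [Group G] [Fintype G]

/-- Restriction of a character invariant in `G` from `K` to `L`, `K / L` an abelian chief factor. -/
theorem going_down (K L : Subgroup G) [hK : K.Normal] [L.Normal] [Fintype K] [Fintype L] (hLK : L < K)
    (hchief : ∀ M : Subgroup G, M.Normal → L ≤ M → M ≤ K → M = L ∨ M = K) (hab : ⁅K, K⁆ ≤ L)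
    (ϑ : K → ℂ) (hϑ : Cfsg.IsIrrCharacter K ϑ)
    (hinv : ∀ (g : G) (n : K), ϑ ⟨g * n * g⁻¹, hK.conj_mem (n : G) n.2 g⟩ = ϑ n) :
    Cfsg.IsIrrCharacter L (fun x : L => ϑ ⟨(x : G), hLK.le x.2⟩) ∨
      (∃ (φ : L → ℂ) (e : ℕ), Cfsg.IsIrrCharacter L φ ∧
        (fun x : L => ϑ ⟨(x : G), hLK.le x.2⟩) = (e : ℂ) • φ ∧ e ^ 2 = L.relIndex K) ∨
      ∃ F : Finset (L → ℂ), (∀ φ ∈ F, Cfsg.IsIrrCharacter L φ) ∧ F.card = L.relIndex K ∧
        (fun x : L => ϑ ⟨(x : G), hLK.le x.2⟩) = ∑ φ ∈ F, φ := by
  classical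
  set r : L → ℂ := fun x : L => ϑ ⟨(x : G), hLK.le x.2⟩ with hr
  have hϑch := H26.isCharacter_of_irr hϑ
  have hrch : Cfsg.IsCharacter L r := H26.isCharacter_comp hϑch (Subgroup.inclusion hLK.le)
  have hn : (L.subgroupOf K).index = L.relIndex K := rfl
  haveI : (L.subgroupOf K).Normal := Subgroup.normal_subgroupOf
  letI := Fintype.ofFinite (L.subgroupOf K)
  have hcomm : ∀ x y : K, x * y * x⁻¹ * y⁻¹ ∈ L.subgroupOf K := fun x y => by
    rw [Subgroup.mem_subgroupOf]
    have := hab (Subgroup.commutator_mem_commutator x.2 y.2)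
    simpa [commutatorElement_def] using this
  have hcard : (Nat.card K : ℂ) = (Nat.card L : ℂ) * (L.relIndex K : ℂ) := by
    rw [← hn, ← Nat.cast_mul, ← Nat.card_congr (Subgroup.subgroupOfEquivOfLe hLK.le).toEquiv,
      Subgroup.card_mul_index]
  have hsum : ∑ x : L, r x * conj (r x) =
      ∑ k : K, if (k : G) ∈ L then ϑ k * conj (ϑ k) else 0 := by
    refine Fintype.sum_of_injective (Subgroup.inclusion hLK.le) (Subgroup.inclusion_injective _) _ _
      (fun k hk => if_neg fun h => hk ⟨⟨k, h⟩, Subtype.ext rfl⟩) (fun x => ?_)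
    rw [if_pos (show ((Subgroup.inclusion hLK.le x : K) : G) ∈ L from x.2)]
    rfl
  -- the subgroup generated by `L` and the support
  let supp : Set G := {x | ∃ h : x ∈ K, ϑ ⟨x, h⟩ ≠ 0}
  let W : Subgroup G := L ⊔ Subgroup.closure supp
  have hWK : W ≤ K := sup_le hLK.le ((Subgroup.closure_le _).2 fun x hx => hx.1)
  have hWn : W.Normal := by
    haveI : (Subgroup.closure supp).Normal := Subgroup.normalizer_eq_top_iff.mp (eq_top_iff.2
      fun g _ => Subgroup.normalizer_le_normalizer_closure supp (by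
        rw [Subgroup.mem_normalizer_iff_conj_image_eq]
        ext x
        simp only [Set.mem_image, MulAut.conj_apply]
        constructor
        · rintro ⟨y, ⟨hy, hne⟩, rfl⟩
          exact ⟨hK.conj_mem y hy g, by rw [hinv g ⟨y, hy⟩]; exact hne⟩
        · rintro ⟨hx, hne⟩
          refine ⟨g⁻¹ * x * g, ⟨by simpa using hK.conj_mem x hx g⁻¹, ?_⟩, by simp [mul_assoc]⟩
          have h := hinv g⁻¹ ⟨x, hx⟩
          simp only [inv_inv] at h
          rwa [h]))
    infer_instance
  rcases hchief W hWn le_sup_left hWK with hW | hW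
  · -- the character vanishes off `L`
    right
    have hnorm : Cfsg.classInner r r = (L.relIndex K : ℂ) := by
      have h1 := H57.irr_inner_self hϑ
      have hKne : (Nat.card K : ℂ) ≠ 0 := Nat.cast_ne_zero.2 Nat.card_pos.ne'
      rw [Cfsg.classInner] at h1 ⊢
      rw [inv_mul_eq_one₀ hKne] at h1
      rw [hsum, inv_mul_eq_iff_eq_mul₀ (Nat.cast_ne_zero.2 Nat.card_pos.ne'), ← hcard, h1]
      refine Finset.sum_congr rfl fun k _ => ?_
      split_ifs with hk
      · rfl
      · rw [show ϑ k = 0 from by_contra fun hne => hk (hW ▸ (le_sup_right : _ ≤ W)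
          (Subgroup.subset_closure ⟨k.2, hne⟩)), zero_mul]
    obtain ⟨φ, hφr⟩ : ∃ φ : Cfsg.IrrCharacter L, Cfsg.classInner r φ.1 ≠ 0 := by
      by_contra h
      push Not at h
      have h0 := H26.eq_zero_of_forall_classInner r (H26.isClassFunction_of_isCharacter hrch) h
      rw [h0, H26.classInner_zero_left] at hnorm
      exact (Nat.cast_ne_zero (R := ℂ)).2 (Subgroup.index_ne_zero_of_finite
        (H := L.subgroupOf K)) hnorm.symm
    have hrtw : ∀ g : G, H56.twist L r g = r := fun g => funext fun x =>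
      hinv g ⟨(x : G), hLK.le x.2⟩
    have htwr : ∀ g : G, Cfsg.classInner r (H56.twist L φ.1 g) = Cfsg.classInner r φ.1 := fun g => by
      conv_lhs => rw [← hrtw g]
      exact H56.classInner_twist L r φ.1 g
    let e := Subgroup.subgroupOfEquivOfLe hLK.le
    have hpull : ∀ {η : L → ℂ}, Cfsg.IsIrrCharacter L η →
        Cfsg.IsIrrCharacter (L.subgroupOf K) (fun y => η (e y)) := fun hη =>
      H56.isIrrCharacter_comp_equiv hη e
    have hinner : ∀ η : L → ℂ, Cfsg.classInner (fun y : L.subgroupOf K => ϑ (y : K))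
        (fun y => η (e y)) = Cfsg.classInner r η := fun η => H43.classInner_congr e r η
    have hconj : ∀ η : Cfsg.IrrCharacter L, Cfsg.classInner r η.1 ≠ 0 →
        ∃ k ∈ K, H56.twist L φ.1 k = η.1 := by
      intro η hη
      obtain ⟨k, hk⟩ := H27.exists_twist_of_constituents (L.subgroupOf K) hϑ (hpull φ.2) (hpull η.2)
        (by rw [hinner]; exact hφr) (by rw [hinner]; exact hη)
      refine ⟨k, k.2, funext fun x => ?_⟩
      exact congrFun hk (e.symm x)
    have hLfix : ∀ c ∈ L, H56.twist L φ.1 c = φ.1 := fun c hc => funext fun x =>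
      (H26.irr_isClassFunction φ) x ⟨c, hc⟩
    let T : Subgroup G :=
      { carrier := {x | x ∈ K ∧ H56.twist L φ.1 x = φ.1}
        mul_mem' := fun {a b} ha hb => ⟨K.mul_mem ha.1 hb.1, by
          rw [← H56.twist_twist L φ.1 a b, ha.2, hb.2]⟩
        one_mem' := ⟨K.one_mem, H56.twist_one L φ.1⟩
        inv_mem' := fun {a} ha => ⟨K.inv_mem ha.1, by
          conv_lhs => rw [← ha.2]
          rw [H56.twist_twist, mul_inv_cancel, H56.twist_one]⟩ }
    have hTn : T.Normal := by
      refine ⟨fun k hk g => ⟨hK.conj_mem k hk.1 g, ?_⟩⟩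
      obtain ⟨k₀, hk₀, hk₀'⟩ := hconj ⟨_, H56.isIrrCharacter_twist L φ.2 g⟩ (by
        show Cfsg.classInner r _ ≠ 0
        rw [htwr]; exact hφr)
      have hc : k₀ * k * k₀⁻¹ * k⁻¹ ∈ L := hcomm ⟨k₀, hk₀⟩ ⟨k, hk.1⟩
      calc H56.twist L φ.1 (g * k * g⁻¹) = H56.twist L (H56.twist L φ.1 g) (k * g⁻¹) := by
              rw [H56.twist_twist, mul_assoc]
        _ = H56.twist L (H56.twist L φ.1 k₀) (k * g⁻¹) := by rw [hk₀']
        _ = H56.twist L φ.1 ((k₀ * k * k₀⁻¹ * k⁻¹) * (k * (k₀ * g⁻¹))) := by
              rw [H56.twist_twist]; group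
        _ = H56.twist L φ.1 (k₀ * g⁻¹) := by
              rw [← H56.twist_twist, hLfix _ hc, ← H56.twist_twist, hk.2]
        _ = H56.twist L (H56.twist L φ.1 g) g⁻¹ := by rw [← H56.twist_twist L φ.1 k₀, hk₀']
        _ = φ.1 := by rw [H56.twist_twist, mul_inv_cancel, H56.twist_one]
    rcases hchief T hTn (fun c hc => ⟨hLK.le hc, hLfix c hc⟩) (fun x hx => hx.1) with hT | hT
    · -- distinct conjugates
      right
      have hTL : ∀ k : K, H56.twist (L.subgroupOf K) (fun y => φ.1 (e y)) k = (fun y => φ.1 (e y)) ↔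
          k ∈ L.subgroupOf K := by
        intro k
        constructor
        · intro h
          rw [Subgroup.mem_subgroupOf, ← hT]
          exact ⟨k.2, funext fun x => congrFun h (e.symm x)⟩
        · intro h
          exact funext fun y => congrFun (hLfix _ (Subgroup.mem_subgroupOf.1 h)) (e y)
      have hind : Cfsg.IsIrrCharacter K (Cfsg.indFun (L.subgroupOf K) (fun y => φ.1 (e y))) := by
        refine H57.irr_of_char_norm_one (H25.isCharacter_indFun _
          (H26.isCharacter_of_irr (hpull φ.2))) ?_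
        have h := H27.card_mul_classInner_indFun (L.subgroupOf K) (hpull φ.2) (hpull φ.2)
        rw [Nat.card_congr (Equiv.subtypeEquivRight hTL)] at h
        exact (mul_eq_left₀ (Nat.cast_ne_zero.2 Nat.card_pos.ne')).1 h
      have hφ1 : Cfsg.classInner r φ.1 = 1 := by
        have h := H25.classInner_indFun_right (L.subgroupOf K) (fun y => φ.1 (e y)) ϑ
          (H26.isClassFunction_of_isCharacter hϑch)
        rw [hinner] at h
        rw [← h] at hφr ⊢
        rw [show Cfsg.indFun (L.subgroupOf K) (fun y => φ.1 (e y)) = ϑ from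
          by_contra fun hne => hφr (H57.irr_inner_ne hϑ hind (Ne.symm hne))]
        exact H57.irr_inner_self hϑ
      let s : Finset (Cfsg.IrrCharacter L) := Finset.univ.filter fun η => Cfsg.classInner r η.1 ≠ 0
      have hone : ∀ η ∈ s, Cfsg.classInner r η.1 = 1 := by
        intro η hη
        obtain ⟨k, -, hk⟩ := hconj η (Finset.mem_filter.1 hη).2
        rw [← hk, htwr, hφ1]
      have hreq : r = ∑ η ∈ s, η.1 := by
        conv_lhs => rw [H26.class_function_expansion r (H26.isClassFunction_of_isCharacter hrch)]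
        rw [← Finset.sum_subset (Finset.subset_univ s) fun η _ hη => by
          rw [show Cfsg.classInner r η.1 = 0 by simpa [s] using hη, zero_smul]]
        exact Finset.sum_congr rfl fun η hη => by rw [hone η hη, one_smul]
      refine ⟨s.map (Function.Embedding.subtype _), ?_, ?_, ?_⟩
      · intro η hη
        obtain ⟨η', -, rfl⟩ := Finset.mem_map.1 hη
        exact η'.2
      · rw [Finset.card_map]
        apply Nat.cast_injective (R := ℂ)
        rw [← hnorm]
        conv_rhs => arg 2; rw [hreq]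
        rw [H26.classInner_sum_right, Finset.sum_congr rfl hone, Finset.sum_const, nsmul_eq_mul,
          mul_one]
      · rw [Finset.sum_map]
        exact hreq
    · -- an invariant constituent
      left
      obtain ⟨m, -, hm, -, -⟩ := H56.restrict_eq_smul_of_invariant (L.subgroupOf K) (hpull φ.2)
        (fun k => funext fun y => congrFun ((show (k : G) ∈ T from hT.symm ▸ k.2).2) (e y)) hϑ
        (by rw [hinner]; exact hφr)
      have hrm : r = (m : ℂ) • φ.1 := funext fun x => by
        have := congrFun hm (e.symm x)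
        simp only [Pi.smul_apply, MulEquiv.apply_symm_apply] at this
        exact this
      refine ⟨φ.1, m, φ.2, hrm, ?_⟩
      apply Nat.cast_injective (R := ℂ)
      rw [← hnorm, hrm, H26.classInner_smul_left, H26.classInner_smul_right, H57.irr_inner_self φ.2,
        map_natCast, mul_one, Nat.cast_pow, sq]
  · -- only the trivial linear character fixes `ϑ`
    left
    refine H57.irr_of_char_norm_one hrch ?_
    haveI hQ : IsMulCommutative (K ⧸ L.subgroupOf K) := ⟨⟨by
      intro a b
      induction a using QuotientGroup.induction_on with | _ x =>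
      induction b using QuotientGroup.induction_on with | _ y =>
      rw [← QuotientGroup.mk_mul, ← QuotientGroup.mk_mul, QuotientGroup.eq]
      have := hcomm y⁻¹ x⁻¹
      simpa [mul_assoc] using this⟩⟩
    let mk := QuotientGroup.mk' (L.subgroupOf K)
    let f : (K ⧸ L.subgroupOf K →* ℂˣ) → K → ℂ := fun μ k => (μ (mk k) : ℂ) * ϑ k
    have hf : ∀ μ, Cfsg.IsIrrCharacter K (f μ) := fun μ => H56.isIrrCharacter_hom_mul hϑ (μ.comp mk)
    have hfix : ∀ μ, f μ = ϑ → μ = 1 := by
      intro μ h
      let ν : K →* ℂˣ := μ.comp mk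
      have hle : W ≤ ν.ker.map K.subtype := by
        refine sup_le (fun x hx => ⟨⟨x, hLK.le hx⟩, ?_, rfl⟩) ((Subgroup.closure_le _).2 ?_)
        · show μ (mk ⟨x, hLK.le hx⟩) = 1
          rw [show mk ⟨x, hLK.le hx⟩ = 1 from (QuotientGroup.eq_one_iff _).2
            (Subgroup.mem_subgroupOf.2 hx), map_one]
        · rintro x ⟨hx, hne⟩
          refine ⟨⟨x, hx⟩, Units.ext ?_, rfl⟩
          have h' := congrFun h ⟨x, hx⟩
          simp only [f] at h'
          exact (mul_eq_right₀ hne).1 h'
      refine MonoidHom.ext fun q => ?_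
      obtain ⟨k, rfl⟩ := QuotientGroup.mk'_surjective (L.subgroupOf K) q
      obtain ⟨k', hk', hkk⟩ := hle (hW.symm ▸ k.2 : (k : G) ∈ W)
      rw [show k' = k from Subtype.ext hkk] at hk'
      exact hk'
    have h1 : ∑ μ : K ⧸ L.subgroupOf K →* ℂˣ, Cfsg.classInner (f μ) ϑ = 1 := by
      rw [Finset.sum_eq_single (1 : K ⧸ L.subgroupOf K →* ℂˣ)]
      · rw [show f 1 = ϑ from funext fun k => by simp [f]]
        exact H57.irr_inner_self hϑ
      · exact fun μ _ hμ => H57.irr_inner_ne (hf μ) hϑ fun h => hμ (hfix μ h)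
      · simp
    rw [← h1]
    simp only [Cfsg.classInner, ← Finset.mul_sum]
    rw [Finset.sum_comm, hsum, hcard, Finset.mul_sum, Finset.mul_sum]
    refine Finset.sum_congr rfl fun k _ => ?_
    simp only [f, mul_assoc, ← Finset.sum_mul, H27.sum_linear_apply]
    have hiff : mk k = 1 ↔ (k : G) ∈ L :=
      (QuotientGroup.eq_one_iff k).trans Subgroup.mem_subgroupOf
    have hq : (Nat.card (K ⧸ L.subgroupOf K) : ℂ) = (L.relIndex K : ℂ) := by
      rw [← hn, Subgroup.index_eq_card]
    have hn0 : (L.relIndex K : ℂ) ≠ 0 := by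
      rw [← hn]; exact Nat.cast_ne_zero.2 Subgroup.index_ne_zero_of_finite
    by_cases hk : (k : G) ∈ L
    · rw [if_pos hk, if_pos (hiff.2 hk), hq]
      field_simp
    · rw [if_neg hk, if_neg (mt hiff.1 hk)]
      ring

end Cfsg.Agent.H38
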