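import Cfsg.Prelude.Def_Sporadic
import Cfsg.Agent.H16.HeSp

/-! The Held group as a permutation group of degree 2058. -/

set_option autoImplicit false

namespace Cfsg.Agent.H38.HeRealization

open Cfsg.Spor

/-- Coset realisation of a group with a core-free subgroup of given index. -/
theorem realize {G : Type} [Group G] (U : Subgroup G) {n : ℕ} [NeZero n] (hn : U.index = n)
    (hcore : U.normalCore = ⊥) :
    ∃ (H : Subgroup (Equiv.Perm (Fin n))) (e : G ≃* H), MulAction.IsPretransitive H (Fin n) ∧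
      U.map e.toMonoidHom = MulAction.stabilizer H (0 : Fin n) := by
  classical
  have hcard : Nat.card (G ⧸ U) = n := hn
  have : Finite (G ⧸ U) := Nat.finite_of_card_ne_zero (by rw [hcard]; exact NeZero.ne n)
  let c0 : G ⧸ U ≃ Fin n := Finite.equivFinOfCardEq hcard
  let c : G ⧸ U ≃ Fin n := c0.trans (Equiv.swap (c0 ((1 : G) : G ⧸ U)) 0)
  have hc : c ((1 : G) : G ⧸ U) = 0 := by simp [c]
  let f : G →* Equiv.Perm (Fin n) := c.permCongrHom.toMonoidHom.comp (MulAction.toPermHom G (G ⧸ U))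
  have hf : ∀ (g : G) (q : G ⧸ U), f g (c q) = c (g • q) := fun g q => by simp [f, Equiv.permCongrHom]
  have hinj : Function.Injective f := by
    rw [← MonoidHom.ker_eq_bot_iff, eq_bot_iff, ← hcore, Subgroup.normalCore_eq_ker]
    intro g hg
    rw [MonoidHom.mem_ker] at hg ⊢
    ext q
    exact c.injective (by rw [MulAction.toPermHom_apply, MulAction.toPerm_apply, ← hf, hg]; rfl)
  refine ⟨f.range, MonoidHom.ofInjective hinj, ⟨fun a b => ?_⟩, ?_⟩
  · obtain ⟨g, hg⟩ := MulAction.exists_smul_eq G (c.symm a) (c.symm b)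
    refine ⟨⟨f g, g, rfl⟩, ?_⟩
    show f g a = b
    conv_lhs => rw [← c.apply_symm_apply a]
    rw [hf, hg, c.apply_symm_apply]
  · ext h
    obtain ⟨g, rfl⟩ := (MonoidHom.ofInjective hinj).surjective h
    rw [Subgroup.mem_map_equiv, MulEquiv.symm_apply_apply, MulAction.mem_stabilizer_iff]
    show g ∈ U ↔ f g 0 = 0
    conv_rhs => rw [← hc, hf, c.injective.eq_iff, MulAction.Quotient.smul_coe, smul_eq_mul, mul_one]
    rw [QuotientGroup.eq, mul_one, inv_mem_iff]

theorem main : ∃ H : Subgroup (Equiv.Perm (Fin 2058)), Cfsg.IsHe H ∧ MulAction.IsPretransitive H (Fin 2058) ∧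
    ∃ (F : Type) (_ : Field F) (_ : Fintype F), Fintype.card F = 4 ∧
      ∃ N : Subgroup (MulAction.stabilizer H (0 : Fin 2058)), N.index = 2 ∧
        Nonempty (N ≃* Matrix.symplecticGroup (Fin 2) F) := by
  obtain ⟨N, K, iK, fK, -, hidx, hK, ⟨eN⟩⟩ := H16.HeSp.main
  have hcore : H16.HeH.sub.normalCore = ⊥ :=
    H16.HeH.theModel.core_eq_bot H16.HeOrder.card_and_faithful.2 _ (Subgroup.normalCore_normal _)
      (Subgroup.normalCore_le _)
  obtain ⟨H, e, htr, hU⟩ := realize (n := 2058) H16.HeH.sub H16.HeH.index_sub hcore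
  obtain ⟨hsimp, hcard⟩ := H16.HeOrder.isHe
  refine ⟨H, ⟨?_, ?_⟩, htr, K, iK, fK, hK, ?_⟩
  · have := hsimp
    exact e.symm.isSimpleGroup
  · rw [← Nat.card_congr e.toEquiv, hcard]
  · let eS : H16.HeH.sub ≃* MulAction.stabilizer H (0 : Fin 2058) :=
      (H16.HeH.sub.equivMapOfInjective e.toMonoidHom e.injective).trans (MulEquiv.subgroupCongr hU)
    refine ⟨N.map eS.toMonoidHom, ?_, ⟨(N.equivMapOfInjective eS.toMonoidHom eS.injective).symm.trans eN⟩⟩
    rw [Subgroup.index_map_of_bijective (f := eS.toMonoidHom) eS.bijective, hidx]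

end Cfsg.Agent.H38.HeRealization
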