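import Cfsg.Agent.H38.GoingDown
import Cfsg.Agent.S0854

/-! Relative M-groups. -/

set_option autoImplicit false

namespace Cfsg.Agent.H38

variable {G : Type*} [Group G] [Fintype G]

/-- In a relative solvable quotient, a perfect chief factor is impossible. -/
theorem commutator_le_of_chief (N K L : Subgroup G) [N.Normal] [K.Normal] [L.Normal]
    (hsolv : Group.IsSolvable (G ⧸ N)) (hNL : N ≤ L) (hLK : L < K)
    (hchief : ∀ M : Subgroup G, M.Normal → L ≤ M → M ≤ K → M = L ∨ M = K) : ⁅K, K⁆ ≤ L := by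
  rcases hchief (⁅K, K⁆ ⊔ L) inferInstance le_sup_right
    (sup_le (Subgroup.commutator_le_self K) hLK.le) with h | h
  · exact h ▸ le_sup_left
  exfalso
  haveI : (L.subgroupOf K).Normal := Subgroup.normal_subgroupOf
  let φ : K →* G ⧸ N := (QuotientGroup.mk' N).comp K.subtype
  have hker : φ.ker ≤ L.subgroupOf K := fun x hx =>
    Subgroup.mem_subgroupOf.2 (hNL ((QuotientGroup.eq_one_iff (x : G)).1 hx))
  haveI : Group.IsSolvable (K ⧸ φ.ker) :=
    solvable_of_solvable_injective (f := (φ.range.subtype.comp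
      (QuotientGroup.quotientKerEquivRange φ).toMonoidHom))
      (φ.range.subtype_injective.comp (QuotientGroup.quotientKerEquivRange φ).injective)
  haveI : Group.IsSolvable (K ⧸ L.subgroupOf K) :=
    solvable_of_surjective (f := QuotientGroup.map φ.ker (L.subgroupOf K) (MonoidHom.id K) hker) (by
      intro q
      obtain ⟨k, rfl⟩ := QuotientGroup.mk'_surjective _ q
      exact ⟨QuotientGroup.mk' _ k, rfl⟩)
  haveI : Nontrivial (K ⧸ L.subgroupOf K) := by
    rw [QuotientGroup.nontrivial_iff, ne_eq, Subgroup.subgroupOf_eq_top]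
    exact hLK.not_ge
  apply (Group.IsSolvable.commutator_lt_top_of_nontrivial (K ⧸ L.subgroupOf K)).ne
  rw [commutator_def, ← (Subgroup.map_top_of_surjective (QuotientGroup.mk' (L.subgroupOf K))
    (QuotientGroup.mk'_surjective _)), ← Subgroup.map_commutator, ← commutator_def]
  rw [← MonoidHom.range_eq_map, MonoidHom.range_eq_top.2 (QuotientGroup.mk'_surjective _), eq_top_iff]
  intro q _
  obtain ⟨k, rfl⟩ := QuotientGroup.mk'_surjective (L.subgroupOf K) q
  obtain ⟨a, ha, b, hb, hab⟩ := Subgroup.mem_sup_of_normal_right.1 (h.symm ▸ k.2 : (k : G) ∈ ⁅K, K⁆ ⊔ L)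
  have ha' : a ∈ (commutator K).map K.subtype := by
    rw [Subgroup.map_subtype_commutator]; exact ha
  obtain ⟨a', ha', rfl⟩ := ha'
  refine ⟨a', ha', (QuotientGroup.eq.2 ?_)⟩
  rw [Subgroup.mem_subgroupOf]
  have : ((a'⁻¹ * k : K) : G) = b := by
    simp only [Subgroup.coe_mul, Subgroup.coe_inv]
    rw [← hab]
    simp
  rw [this]
  exact hb

open scoped Classical in
/-- One descent step towards an inducing subgroup. -/
theorem relative_m_step (N : Subgroup G) [N.Normal] (hsolv : Group.IsSolvable (G ⧸ N))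
    (hchief : ∀ (K L : Subgroup G), K.Normal → L.Normal → N ≤ L → L < K →
      (∀ M : Subgroup G, M.Normal → L ≤ M → M ≤ K → M = L ∨ M = K) → ¬ IsSquare (L.relIndex K))
    {χ : G → ℂ} (hχ : Cfsg.IsIrrCharacter G χ)
    (hred : ¬ Cfsg.IsIrrCharacter N (fun n : N => χ n)) :
    ∃ T : Subgroup G, T ≠ ⊤ ∧ N ≤ T ∧ ∃ ψ : T → ℂ, Cfsg.IsIrrCharacter T ψ ∧ Cfsg.indFun T ψ = χ := by
  have hχch := H26.isCharacter_of_irr hχ
  obtain ⟨K, ⟨hKn, hNK, hKirr⟩, hKmin⟩ := exists_minimal_of_wellFoundedLT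
    (fun K : Subgroup G => K.Normal ∧ N ≤ K ∧ Cfsg.IsIrrCharacter K (fun k : K => χ k))
    ⟨⊤, inferInstance, le_top, by
      have := H56.isIrrCharacter_comp_equiv hχ (Subgroup.topEquiv (G := G))
      exact this⟩
  haveI := hKn
  have hNKlt : N < K := lt_of_le_of_ne hNK fun h => hred (by subst h; exact hKirr)
  obtain ⟨L, ⟨hLn, hNL, hLK⟩, hLmax⟩ := exists_maximal_of_wellFoundedGT
    (fun L : Subgroup G => L.Normal ∧ N ≤ L ∧ L < K) ⟨N, inferInstance, le_rfl, hNKlt⟩
  haveI := hLn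
  have hch : ∀ M : Subgroup G, M.Normal → L ≤ M → M ≤ K → M = L ∨ M = K := by
    intro M hM h1 h2
    by_cases h : M = K
    · exact Or.inr h
    · exact Or.inl (le_antisymm (hLmax ⟨hM, hNL.trans h1, lt_of_le_of_ne h2 h⟩ h1) h1)
  have hnsq := hchief K L hKn hLn hNL hLK hch
  rcases going_down K L hLK hch (commutator_le_of_chief N K L hsolv hNL hLK hch)
      (fun k : K => χ k) hKirr (fun g n => H26.isClassFunction_of_isCharacter hχch (n : G) g) with
    hirr | ⟨φ, e, -, -, he⟩ | ⟨F, hF, hFcard, hres⟩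
  · exact absurd (hKmin ⟨hLn, hNL, hirr⟩ hLK.le) hLK.not_ge
  · exact absurd ⟨e, by rw [← he, sq]⟩ hnsq
  -- the inertia subgroup of a constituent
  have hres' : (fun x : L => χ x) = ∑ φ ∈ F, φ := hres
  have hone : ∀ φ ∈ F, Cfsg.classInner (fun x : L => χ x) φ = 1 := by
    intro φ hφ
    rw [hres', H26.classInner_sum_left, Finset.sum_eq_single φ
      (fun η hη hne => H57.irr_inner_ne (hF η hη) (hF φ hφ) hne) (fun h => absurd hφ h)]
    exact H57.irr_inner_self (hF φ hφ)
  have hidx : L.relIndex K ≠ 1 := fun h => hLK.not_ge (Subgroup.relIndex_eq_one.1 h)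
  have hidx0 : L.relIndex K ≠ 0 := Subgroup.index_ne_zero_of_finite
  obtain ⟨φ, hφ, φ', hφ', hne⟩ := Finset.one_lt_card.1 (show 1 < F.card by omega)
  let T : Subgroup G :=
    { carrier := {x | H56.twist L φ x = φ}
      mul_mem' := fun {a b} (ha : H56.twist L φ a = φ) (hb : H56.twist L φ b = φ) =>
        show H56.twist L φ (a * b) = φ by rw [← H56.twist_twist L φ a b, ha, hb]
      one_mem' := H56.twist_one L φ
      inv_mem' := fun {a} (ha : H56.twist L φ a = φ) => show H56.twist L φ a⁻¹ = φ by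
        conv_lhs => rw [← ha]
        rw [H56.twist_twist, mul_inv_cancel, H56.twist_one] }
  have hLT : L ≤ T := fun c hc => funext fun x =>
    H26.isClassFunction_of_isCharacter (H26.isCharacter_of_irr (hF φ hφ)) x ⟨c, hc⟩
  refine ⟨T, fun hT => hne ?_, hNL.trans hLT, ?_⟩
  · obtain ⟨g, hg⟩ := H27.exists_twist_of_constituents L hχ (hF φ hφ) (hF φ' hφ')
      (by rw [hone φ hφ]; exact one_ne_zero) (by rw [hone φ' hφ']; exact one_ne_zero)
    have hgT : g ∈ T := hT ▸ Subgroup.mem_top g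
    exact (show H56.twist L φ g = φ from hgT).symm.trans hg
  · obtain ⟨ψ, hψ, hind, -⟩ := S0854.result L φ (hF φ hφ) T
      (fun g => ⟨fun h n => congrFun h n, fun h => funext h⟩) hLT χ hχ
      (by rw [hone φ hφ]; exact one_ne_zero)
    exact ⟨ψ, hψ, hind⟩

/-- Equal subgroups with equal functions induce the same function. -/
theorem indFun_congr {H₁ H₂ : Subgroup G} (h : H₁ = H₂) (θ₁ : H₁ → ℂ) (θ₂ : H₂ → ℂ)
    (he : ∀ (x : G) (h1 : x ∈ H₁) (h2 : x ∈ H₂), θ₁ ⟨x, h1⟩ = θ₂ ⟨x, h2⟩) :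
    Cfsg.indFun H₁ θ₁ = Cfsg.indFun H₂ θ₂ := by
  subst h
  exact congrArg _ (funext fun x => he x x.2 x.2)

end Cfsg.Agent.H38
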