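import Cfsg.Agent.H19.Fitting
import Cfsg.Agent.H27.Imprimitive
import Cfsg.Agent.H56.Clifford
import Cfsg.Agent.H38.RelativeM

/-! Linear inducing subgroups above a normal subgroup with abelian Sylow subgroups. -/

set_option autoImplicit false

open scoped ComplexConjugate
open Module

namespace Cfsg.Agent.H38

/-- A solvable group with abelian `p`-subgroups whose Fitting subgroup is central is abelian. -/
theorem comm_of_fitting_central {G : Type*} [Group G] [Finite G] [Group.IsSolvable G]
    (h : ∀ f ∈ Cfsg.fittingSubgroup G, ∀ g : G, g * f = f * g) : ∀ a b : G, a * b = b * a := by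
  intro a b
  exact (h a (H19.centralizer_fitting_le (Subgroup.mem_centralizer_iff.2 fun f hf => (h f hf a).symm)) b).symm

/-- The Fitting subgroup is abelian when all `p`-subgroups are. -/
theorem fitting_comm {G : Type*} [Group G] [Finite G]
    (hab : ∀ (p : ℕ) [Fact p.Prime] (P : Subgroup G), IsPGroup p P → ∀ a ∈ P, ∀ b ∈ P, a * b = b * a) :
    ∀ a ∈ Cfsg.fittingSubgroup G, ∀ b ∈ Cfsg.fittingSubgroup G, a * b = b * a := by
  have key : ∀ p q : Nat.Primes,
      Cfsg.pCore (p : ℕ) G ≤ Subgroup.centralizer (Cfsg.pCore (q : ℕ) G : Set G) := by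
    intro p q x hx
    rw [Subgroup.mem_centralizer_iff]
    intro y hy
    haveI : Fact (p : ℕ).Prime := ⟨p.2⟩
    haveI : Fact (q : ℕ).Prime := ⟨q.2⟩
    by_cases hpq : p = q
    · subst hpq
      exact hab p (Cfsg.pCore (p : ℕ) G) (H19.pCore_isPGroup _) y hy x hx
    · exact Subgroup.commute_of_normal_of_disjoint _ _ (H19.pCore_normal _ G) (H19.pCore_normal _ G)
        (IsPGroup.disjoint_of_ne _ _ (fun e => hpq (Subtype.ext e.symm)) _ _
          (H19.pCore_isPGroup _) (H19.pCore_isPGroup _)) y x hy hx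
  intro a ha b hb
  rw [H19.fitting_eq_iSup_pCore] at ha hb
  have hle : (⨆ p : Nat.Primes, Cfsg.pCore (p : ℕ) G) ≤
      Subgroup.centralizer ((⨆ p : Nat.Primes, Cfsg.pCore (p : ℕ) G : Subgroup G) : Set G) :=
    iSup_le fun p => Subgroup.le_centralizer_iff.1 (iSup_le fun q => key q p)
  exact (Subgroup.mem_centralizer_iff.1 (hle ha) b hb).symm

open scoped Classical in
/-- A primitive character with irreducible restriction to a normal subgroup with abelian
`p`-subgroups has degree one. -/
theorem degree_one_of_primitive {G : Type*} [Group G] [Fintype G] [Group.IsSolvable G]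
    (N : Subgroup G) [N.Normal] [Fintype N]
    (hab : ∀ (p : ℕ) [Fact p.Prime] (P : Subgroup G), P ≤ N → IsPGroup p P →
      ∀ a ∈ P, ∀ b ∈ P, a * b = b * a)
    {η : G → ℂ} (hη : Cfsg.IsIrrCharacter G η) (hN : Cfsg.IsIrrCharacter N (fun n : N => η n))
    (hprim : ∀ (T : Subgroup G) (σ : T → ℂ), Cfsg.IsIrrCharacter T σ → Cfsg.indFun T σ = η → T = ⊤) :
    η 1 = 1 := by
  obtain ⟨n, ρ, hρ, rfl⟩ := hη
  let qU : G →* (Module.End ℂ (Fin n → ℂ))ˣ := ρ.toHomUnits
  let r := qU.rangeRestrict
  have hr : Function.Surjective r := qU.rangeRestrict_surjective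
  haveI : Finite qU.range := Finite.of_surjective r hr
  haveI : Group.IsSolvable qU.range := solvable_of_surjective hr
  haveI hDn : (N.map r).Normal := Subgroup.Normal.map inferInstance r hr
  let rN : N →* N.map r := r.subgroupMap N
  have hrN : Function.Surjective rN := r.subgroupMap_surjective N
  -- `p`-subgroups of the image are abelian
  have habD : ∀ (p : ℕ) [Fact p.Prime] (P : Subgroup (N.map r)), IsPGroup p P →
      ∀ a ∈ P, ∀ b ∈ P, a * b = b * a := by
    intro p _ P hP a ha b hb
    obtain ⟨S, hS⟩ := hP.exists_le_sylow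
    obtain ⟨S', rfl⟩ := Sylow.mapSurjective_surjective hrN p S
    have ha' := hS ha
    have hb' := hS hb
    rw [Sylow.coe_mapSurjective] at ha' hb'
    obtain ⟨a', ha'', rfl⟩ := ha'
    obtain ⟨b', hb'', rfl⟩ := hb'
    rw [← map_mul, ← map_mul]
    congr 1
    refine Subtype.ext (hab p (S'.1.map N.subtype) (Subgroup.map_subtype_le _) (S'.2.map _) a'
      ⟨a', ha'', rfl⟩ b' ⟨b', hb'', rfl⟩)
  -- the Fitting subgroup of the image, pulled back
  haveI : (Cfsg.fittingSubgroup (N.map r)).Characteristic := H19.fitting_characteristic _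
  haveI hFn : ((Cfsg.fittingSubgroup (N.map r)).map (N.map r).subtype).Normal :=
    ConjAct.normal_of_characteristic_of_normal
  let A : Subgroup G := ((Cfsg.fittingSubgroup (N.map r)).map (N.map r).subtype).comap r
  have hρr : ∀ g, ρ g = (((r g : qU.range) : (Module.End ℂ (Fin n → ℂ))ˣ) : Module.End ℂ (Fin n → ℂ)) :=
    fun g => rfl
  have hA : ∀ a ∈ A, ∀ b ∈ A, ρ a * ρ b = ρ b * ρ a := by
    intro a ha b hb
    obtain ⟨a', ha', hae⟩ := ha
    obtain ⟨b', hb', hbe⟩ := hb
    rw [hρr, hρr, ← hae, ← hbe]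
    have h := congrArg (fun x : N.map r => (((x : qU.range) : (Module.End ℂ (Fin n → ℂ))ˣ) :
      Module.End ℂ (Fin n → ℂ))) (fitting_comm habD a' ha' b' hb')
    exact h
  haveI : A.Normal := hFn.comap r
  obtain ⟨μ, T, W, σ, -, -, hσ, -, hμ, hind, hdeg⟩ :=
    H27.exists_indFun_of_commutative_image ρ A hA
  have hT : T = ⊤ := hprim T σ.character (H26.isIrrCharacter_char σ) hind.symm
  rw [hT, Subgroup.index_top, one_mul] at hdeg
  have hW : W = ⊤ := Submodule.eq_top_of_finrank_eq hdeg.symm
  have hscal : ∀ a : A, ρ (a : G) = (μ a : ℂ) • LinearMap.id := fun a => LinearMap.ext fun v =>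
    hμ a v (hW ▸ Submodule.mem_top)
  -- the Fitting subgroup of the image is central
  have hcent : ∀ f ∈ Cfsg.fittingSubgroup (N.map r), ∀ g : N.map r, g * f = f * g := by
    intro f hf g
    obtain ⟨x, hx⟩ := hr (f : qU.range)
    have hxA : x ∈ A := ⟨f, hf, hx.symm⟩
    obtain ⟨y, hy⟩ := hr (g : qU.range)
    apply Subtype.ext
    apply Subtype.ext
    apply Units.ext
    show (((g : qU.range) : (Module.End ℂ (Fin n → ℂ))ˣ) : Module.End ℂ (Fin n → ℂ)) *
      (((f : qU.range) : (Module.End ℂ (Fin n → ℂ))ˣ) : Module.End ℂ (Fin n → ℂ)) =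
      (((f : qU.range) : (Module.End ℂ (Fin n → ℂ))ˣ) : Module.End ℂ (Fin n → ℂ)) *
      (((g : qU.range) : (Module.End ℂ (Fin n → ℂ))ˣ) : Module.End ℂ (Fin n → ℂ))
    rw [← hx, ← hy, ← hρr, ← hρr, hscal ⟨x, hxA⟩]
    apply LinearMap.ext
    intro v
    simp
  haveI : Group.IsSolvable (N.map r) := inferInstance
  have hDcomm := comm_of_fitting_central hcent
  have hNA : ∀ m : N, (m : G) ∈ A := by
    intro m
    refine ⟨rN m, ?_, rfl⟩
    exact H19.centralizer_fitting_le (Subgroup.mem_centralizer_iff.2 fun f _ => hDcomm f _)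
  obtain ⟨a, ha, ha'⟩ := H57.irr_degree (H26.isIrrCharacter_char ρ)
  have hval : ∀ m : N, ρ.character (m : G) = (μ ⟨m, hNA m⟩ : ℂ) * (a : ℂ) := by
    intro m
    rw [← ha', ρ.char_one]
    show LinearMap.trace ℂ _ (ρ (m : G)) = _
    rw [hscal ⟨m, hNA m⟩, map_smul, LinearMap.trace_id, smul_eq_mul]
  let ν : N →* ℂˣ := μ.comp (Subgroup.inclusion (show N ≤ A from fun x hx => hNA ⟨x, hx⟩))
  have h1 := H57.irr_inner_self hN
  rw [show (fun m : N => ρ.character (m : G)) = (a : ℂ) • fun m => (ν m : ℂ) from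
    funext fun m => (hval m).trans (mul_comm _ _), H26.classInner_smul_left, H26.classInner_smul_right,
    H57.irr_inner_self (H26.isIrrCharacter_hom ν), map_natCast, mul_one] at h1
  have h2 : a * a = 1 := by exact_mod_cast h1
  rw [ha', Nat.eq_one_of_mul_eq_one_right h2, Nat.cast_one]

open scoped Classical in
/-- An irreducible character with irreducible restriction to `N` is monomial. -/
theorem monomial_of_restrict_irr {G : Type*} [Group G] [Fintype G] [Group.IsSolvable G]
    (N : Subgroup G) [N.Normal]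
    (hab : ∀ (p : ℕ) [Fact p.Prime] (P : Subgroup G), P ≤ N → IsPGroup p P →
      ∀ a ∈ P, ∀ b ∈ P, a * b = b * a)
    {χ : G → ℂ} (hχ : Cfsg.IsIrrCharacter G χ) (hN : Cfsg.IsIrrCharacter N (fun n : N => χ n)) :
    ∃ (U : Subgroup G) (lam : U → ℂ), Cfsg.IsCharacter U lam ∧ lam 1 = 1 ∧ Cfsg.indFun U lam = χ := by
  haveI := Fintype.ofFinite N
  have hχc := H26.isClassFunction_of_isCharacter (H26.isCharacter_of_irr hχ)
  obtain ⟨U, ⟨η, hη, hind⟩, hmin⟩ := exists_minimal_of_wellFoundedLT
    (fun U : Subgroup G => ∃ η : U → ℂ, Cfsg.IsIrrCharacter U η ∧ Cfsg.indFun U η = χ)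
    ⟨⊤, fun x => χ x, H56.isIrrCharacter_comp_equiv hχ (Subgroup.topEquiv (G := G)), funext fun g =>
      H25.indFun_apply_eq_self (⊤ : Subgroup G) (fun x => χ x) (fun a b => hχc (a : G) (b : G))
        ⟨g, Subgroup.mem_top g⟩ (fun x hx => absurd (Subgroup.mem_top x) hx)⟩
  haveI := Fintype.ofFinite U
  refine ⟨U, η, H26.isCharacter_of_irr hη, ?_, hind⟩
  haveI : (N.subgroupOf U).Normal := Subgroup.normal_subgroupOf
  haveI := Fintype.ofFinite (N.subgroupOf U)
  have hηD := H26.isCharacter_comp (H26.isCharacter_of_irr hη) (N.subgroupOf U).subtype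
  -- the restriction to `U ∩ N` is irreducible
  have hirrD : Cfsg.IsIrrCharacter (N.subgroupOf U) (fun x : N.subgroupOf U => η x) := by
    let j : (U.subgroupOf N) ≃* (N.subgroupOf U) :=
      { toFun := fun x => ⟨⟨(x : N), Subgroup.mem_subgroupOf.1 x.2⟩, Subgroup.mem_subgroupOf.2 (x : N).2⟩
        invFun := fun x => ⟨⟨(x : U), Subgroup.mem_subgroupOf.1 x.2⟩, Subgroup.mem_subgroupOf.2 (x : U).2⟩
        left_inv := fun x => rfl
        right_inv := fun x => rfl
        map_mul' := fun x y => rfl }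
    haveI := Fintype.ofFinite (U.subgroupOf N)
    refine H57.irr_of_char_norm_one hηD ?_
    set ξ : U.subgroupOf N → ℂ := fun x => η (j x : U) with hξ
    have hξc : Cfsg.IsCharacter (U.subgroupOf N) ξ :=
      H26.isCharacter_comp hηD j.toMonoidHom
    obtain ⟨m, hm⟩ := H26.exists_nat_classInner_irr (H25.isCharacter_indFun (U.subgroupOf N) hξc) ⟨_, hN⟩
    obtain ⟨c, hc, hce⟩ := H26.exists_nat_coeffs
      (H26.isCharacter_comp (H26.isCharacter_of_irr hχ) U.subtype)
    have hc1 : c ⟨η, hη⟩ = 1 := by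
      have h := H25.classInner_indFun_right U η χ hχc
      rw [hind, H57.irr_inner_self hχ] at h
      exact_mod_cast (h.trans (hc ⟨η, hη⟩)).symm
    obtain ⟨w, hw⟩ := H26.exists_nat_coeffs hηD
    have hDinner : Cfsg.classInner (fun x : N.subgroupOf U => χ ((x : U) : G))
        (fun x : N.subgroupOf U => η x) = (m : ℂ) := by
      rw [← H43.classInner_congr j (fun x : N.subgroupOf U => χ ((x : U) : G))]
      have hNc : Cfsg.IsClassFunction N (fun n : N => χ n) := fun a b => hχc (a : G) (b : G)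
      have h := H25.classInner_indFun_left (U.subgroupOf N) ξ (fun n : N => χ n) hNc
      rw [H26.classInner_comm]
      refine (congrArg conj (h.symm.trans hm)).trans (Complex.conj_natCast m)
    have hnat : ∀ ψ : Cfsg.IrrCharacter U, ∃ v : ℕ,
        Cfsg.classInner (fun x : N.subgroupOf U => ψ.1 x) (fun x : N.subgroupOf U => η x) = v := by
      intro ψ
      obtain ⟨v, hv⟩ := H26.exists_nat_coeffs
        (H26.isCharacter_comp (H26.irr_isCharacter ψ) (N.subgroupOf U).subtype)
      refine ⟨∑ φ, v φ * w φ, ?_⟩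
      have hw2 : (fun x : N.subgroupOf U => η x) =
        ∑ φ : Cfsg.IrrCharacter (N.subgroupOf U), (w φ : ℂ) • φ.1 := hw.2
      rw [hw2, H26.classInner_sum_right]
      push_cast
      refine Finset.sum_congr rfl fun φ _ => ?_
      rw [H26.classInner_smul_right, map_natCast,
        show Cfsg.classInner (fun x : N.subgroupOf U => ψ.1 x) φ.1 = v φ from hv.1 φ, mul_comm]
    choose v hv using hnat
    have hsum : (m : ℂ) = ((∑ ψ, c ψ * v ψ : ℕ) : ℂ) := by
      rw [← hDinner,
        show (fun x : N.subgroupOf U => χ ((x : U) : G)) =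
          ∑ ψ : Cfsg.IrrCharacter U, (c ψ : ℂ) • (fun x : N.subgroupOf U => ψ.1 x) from
          funext fun x => by
            have h := congrFun hce (x : U)
            simpa [Finset.sum_apply] using h,
        H26.classInner_sum_left]
      push_cast
      exact Finset.sum_congr rfl fun ψ _ => by rw [H26.classInner_smul_left, hv]
    have hvm : v ⟨η, hη⟩ ≤ m := by
      have h : m = ∑ ψ, c ψ * v ψ := by exact_mod_cast hsum
      rw [h]
      have := Finset.single_le_sum (f := fun ψ => c ψ * v ψ) (fun ψ _ => Nat.zero_le _)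
        (Finset.mem_univ ⟨η, hη⟩)
      simpa [hc1] using this
    -- degree comparison
    obtain ⟨a, ha, ha'⟩ := H57.irr_degree hη
    obtain ⟨b, hb, hb'⟩ := H57.irr_degree hN
    have hidx : (U.subgroupOf N).index ≤ U.index :=
      (Subgroup.relIndex_le_of_le_right (le_top : N ≤ ⊤)
        (by rw [Subgroup.relIndex_top_right]; exact Subgroup.index_ne_zero_of_finite)).trans
        (le_of_eq (Subgroup.relIndex_top_right U))
    obtain ⟨d, hd, hde⟩ := H26.exists_nat_coeffs (H25.isCharacter_indFun (U.subgroupOf N) hξc)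
    have hdeg : ∀ ψ : Cfsg.IrrCharacter N, ∃ k : ℕ, ψ.1 1 = k := fun ψ =>
      H26.exists_nat_char_one (H26.irr_isCharacter ψ)
    choose k hk using hdeg
    have htot : (((U.subgroupOf N).index * a : ℕ) : ℂ) = ((∑ ψ, d ψ * k ψ : ℕ) : ℂ) := by
      have h := congrFun hde 1
      rw [H25.indFun_one, Finset.sum_apply, show ξ 1 = (a : ℂ) by rw [hξ]; simpa using ha'] at h
      simpa [hk] using h
    have htot' : (U.subgroupOf N).index * a = ∑ ψ, d ψ * k ψ := by exact_mod_cast htot
    have hχ1 : b = U.index * a := by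
      have h : χ 1 = (b : ℂ) := hb'
      rw [← hind, H25.indFun_one, ha'] at h
      exact_mod_cast h.symm
    have hdm : d ⟨_, hN⟩ = m := by exact_mod_cast (hd ⟨_, hN⟩).symm.trans hm
    have hkb : k ⟨_, hN⟩ = b := by exact_mod_cast (hk ⟨_, hN⟩).symm.trans hb'
    have hmb : m * b ≤ 1 * b := by
      rw [one_mul]
      have h := Finset.single_le_sum (f := fun ψ => d ψ * k ψ) (fun ψ _ => Nat.zero_le _)
        (Finset.mem_univ ⟨_, hN⟩)
      simp only [hdm, hkb, ← htot'] at h
      exact h.trans (hχ1 ▸ Nat.mul_le_mul_right a hidx)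
    have hm1 : v ⟨η, hη⟩ ≤ 1 := hvm.trans (Nat.le_of_mul_le_mul_right hmb hb)
    have hv0 : v ⟨η, hη⟩ ≠ 0 := by
      intro h0
      have h := hv ⟨η, hη⟩
      rw [h0, Nat.cast_zero, H57.inner_self_eq_zero] at h
      exact H26.irr_one_ne_zero ⟨η, hη⟩ (congrFun h 1)
    calc Cfsg.classInner (fun x : N.subgroupOf U => η x) (fun x : N.subgroupOf U => η x)
        = (v ⟨η, hη⟩ : ℂ) := hv ⟨η, hη⟩
      _ = 1 := by rw [show v ⟨η, hη⟩ = 1 by omega, Nat.cast_one]
  exact degree_one_of_primitive (N.subgroupOf U) (fun p _ P hP hPp a ha b hb => Subtype.ext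
      (hab p (P.map U.subtype) (fun x ⟨y, hy, e⟩ => e ▸ Subgroup.mem_subgroupOf.1 (hP hy))
        (hPp.map _) a ⟨a, ha, rfl⟩ b ⟨b, hb, rfl⟩)) hη hirrD
    (fun T σ hσ hTind => by
      by_contra hne
      let e := T.equivMapOfInjective U.subtype U.subtype_injective
      have hTU : T.map U.subtype ≤ U := Subgroup.map_subtype_le T
      have hle := hmin (y := T.map U.subtype) ⟨fun x => σ (e.symm x),
        H56.isIrrCharacter_comp_equiv hσ e.symm, by
        rw [← H25.indFun_trans (T.map U.subtype) U hTU, ← hind, ← hTind]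
        congr 1
        refine indFun_congr (Subgroup.comap_map_eq_self_of_injective U.subtype_injective T) _ _
          fun x hx hxT => congrArg σ ?_
        apply e.injective
        rw [e.apply_symm_apply]
        exact Subtype.ext rfl⟩ hTU
      apply hne
      apply Subgroup.map_injective U.subtype_injective
      rw [← MonoidHom.range_eq_map, Subgroup.range_subtype]
      exact le_antisymm hTU hle)

end Cfsg.Agent.H38
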