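import Mathlib
import Cfsg.Prelude.Def_OddOrderChar
import Cfsg.Agent.H57.CohBasic
import Cfsg.Agent.H43.CharTools
import Cfsg.Agent.H25.IndRep
import Cfsg.Agent.H38.TIFN
import Cfsg.Agent.S0171
import Cfsg.Agent.S0850

/-! Characters of the normaliser of a T.I. subgroup with Frobenius normaliser: the relevant
characters, and the restriction to the kernel of their images under a coherent isometry. -/

set_option autoImplicit false

open scoped ComplexConjugate

namespace Cfsg.Agent.H38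

/-- Characters not constantly equal to their degree on the normal subgroup `M`. -/
def RelevantOn {N : Type*} [Group N] (M : Subgroup N) (χ : N → ℂ) : Prop := ∃ k ∈ M, χ k ≠ χ 1

section Kernel

variable {N : Type*} [Group N] [Fintype N] (M : Subgroup N) [M.Normal] [Fintype M]

/-- All non-principal irreducible characters of the kernel induce irreducibly. -/
def InducesIrr : Prop :=
  ∀ θ : M → ℂ, Cfsg.IsIrrCharacter M θ → θ ≠ (fun _ => 1) → Cfsg.IsIrrCharacter N (Cfsg.indFun M θ)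

variable {M}

/-- A relevant character is induced from a non-principal character of the kernel. -/
theorem relevant_eq_indFun (hfrob : InducesIrr M) {χ : N → ℂ} (hχ : Cfsg.IsIrrCharacter N χ)
    (hr : RelevantOn M χ) :
    ∃ θ : M → ℂ, Cfsg.IsIrrCharacter M θ ∧ θ ≠ (fun _ => 1) ∧ χ = Cfsg.indFun M θ := by
  have hcl := H26.isClassFunction_of_isCharacter (H26.isCharacter_of_irr hχ)
  have hres : Cfsg.IsClassFunction M (fun m : M => χ m) :=
    H26.isClassFunction_of_isCharacter (H26.isCharacter_comp (H26.isCharacter_of_irr hχ) M.subtype)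
  by_cases h : ∃ θ : Cfsg.IrrCharacter M, θ.1 ≠ (fun _ => 1) ∧
      Cfsg.classInner (fun m : M => χ m) θ.1 ≠ 0
  · obtain ⟨θ, hθ1, hθ⟩ := h
    refine ⟨θ.1, θ.2, hθ1, by_contra fun hne => hθ ?_⟩
    rw [← H25.classInner_indFun_right M θ.1 χ hcl]
    exact H57.irr_inner_ne hχ (hfrob θ.1 θ.2 hθ1) hne
  · exfalso
    push Not at h
    obtain ⟨k, hk, hne⟩ := hr
    apply hne
    have hexp := H26.class_function_expansion _ hres
    have hval : ∀ m : M, χ m = Cfsg.classInner (fun m : M => χ m) (fun _ : M => (1 : ℂ)) := by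
      intro m
      have h1 := congrFun hexp m
      rw [Finset.sum_apply, Finset.sum_eq_single (H26.oneIrr M)] at h1
      · simp only [Pi.smul_apply, smul_eq_mul, H26.oneIrr_val, mul_one] at h1
        exact h1
      · intro θ _ hθ
        rw [Pi.smul_apply, h θ (fun e => hθ (Subtype.ext e)), zero_smul]
      · simp
    exact (hval ⟨k, hk⟩).trans (hval 1).symm

/-- Relevant characters vanish off the kernel. -/
theorem relevant_vanish (hfrob : InducesIrr M) {χ : N → ℂ} (hχ : Cfsg.IsIrrCharacter N χ)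
    (hr : RelevantOn M χ) {x : N} (hx : x ∉ M) : χ x = 0 := by
  obtain ⟨θ, -, -, rfl⟩ := relevant_eq_indFun hfrob hχ hr
  refine H25.indFun_eq_zero M θ fun y hy => hx ?_
  have := Subgroup.Normal.conj_mem inferInstance _ hy y
  simpa [mul_assoc] using this

omit [Fintype M] in
/-- The sum of a relevant character over the group vanishes. -/
theorem relevant_sum_eq_zero {χ : N → ℂ} (hχ : Cfsg.IsIrrCharacter N χ) (hr : RelevantOn M χ) :
    ∑ x : N, χ x = 0 := by
  have hne : χ ≠ (H26.oneIrr N).1 := by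
    rintro rfl
    obtain ⟨k, -, hk⟩ := hr
    exact hk rfl
  have h := H57.irr_inner_ne hχ (H26.oneIrr N).2 hne
  have hN : (Nat.card N : ℂ) ≠ 0 := Nat.cast_ne_zero.2 Nat.card_pos.ne'
  simpa [Cfsg.classInner, H26.oneIrr_val, hN] using h

/-- A non-principal character of the kernel induces to a relevant character. -/
theorem relevant_indFun (hfrob : InducesIrr M) (hM : M ≠ ⊤) {θ : M → ℂ}
    (hθ : Cfsg.IsIrrCharacter M θ) (hθ1 : θ ≠ fun _ => 1) : RelevantOn M (Cfsg.indFun M θ) := by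
  classical
  set χ := Cfsg.indFun M θ with hχdef
  have hχ := hfrob θ hθ hθ1
  by_contra hn
  simp only [RelevantOn] at hn
  push Not at hn
  obtain ⟨d, hd, hd'⟩ := H57.irr_degree hθ
  have hχ1 : χ 1 = (M.index : ℂ) * d := by rw [hχdef, H25.indFun_one, hd']
  have hne : χ ≠ (H26.oneIrr N).1 := by
    intro he
    have h1 := congrFun he 1
    rw [hχ1, H26.oneIrr_val] at h1
    have h2 : M.index * d = 1 := by exact_mod_cast h1
    exact hM (Subgroup.index_eq_one.mp (Nat.eq_one_of_mul_eq_one_right h2))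
  have h := H57.irr_inner_ne hχ (H26.oneIrr N).2 hne
  have hsum : ∑ x : N, χ x = 0 := by
    have hN : (Nat.card N : ℂ) ≠ 0 := Nat.cast_ne_zero.2 Nat.card_pos.ne'
    simpa [Cfsg.classInner, H26.oneIrr_val, hN] using h
  rw [← Finset.sum_filter_of_ne (p := fun x => x ∈ M) (fun x _ hx => by
    by_contra hxM
    exact hx (H25.indFun_eq_zero M θ fun y hy => hxM (by
      simpa [mul_assoc] using Subgroup.Normal.conj_mem inferInstance _ hy y))),
    Finset.sum_congr rfl (fun x hx => hn x (Finset.mem_filter.1 hx).2), Finset.sum_const,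
    nsmul_eq_mul] at hsum
  rcases mul_eq_zero.1 hsum with h0 | h0
  · exact (Finset.card_pos.2 ⟨1, by simp⟩ :
      0 < (Finset.univ.filter fun x : N => x ∈ M).card).ne' (by exact_mod_cast h0)
  · exact H26.irr_one_ne_zero ⟨χ, hχ⟩ h0

/-- When there are two relevant characters, each is non-constant away from the identity. -/
theorem relevant_nonconstant (hfrob : InducesIrr M) {χ ξ : N → ℂ} (hχ : Cfsg.IsIrrCharacter N χ)
    (hr : RelevantOn M χ) (hξ : Cfsg.IsIrrCharacter N ξ) (hr' : RelevantOn M ξ) (hne : χ ≠ ξ) :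
    ∃ a ∈ M, ∃ b ∈ M, a ≠ 1 ∧ b ≠ 1 ∧ χ a ≠ χ b := by
  classical
  by_contra hn
  push Not at hn
  obtain ⟨k, hk, hk1⟩ := hr
  have hk0 : k ≠ 1 := fun e => hk1 (by rw [e])
  have hin := H57.irr_inner_ne hχ hξ hne
  have hN : (Nat.card N : ℂ) ≠ 0 := Nat.cast_ne_zero.2 Nat.card_pos.ne'
  rw [Cfsg.classInner, mul_eq_zero, inv_eq_zero] at hin
  have h0 := hin.resolve_left hN
  have hterm : ∀ x : N, χ x * conj (ξ x) =
      χ k * conj (ξ x) + if x = 1 then (χ 1 - χ k) * conj (ξ 1) else 0 := by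
    intro x
    by_cases hx : x = 1
    · subst hx; simp [sub_mul]
    · rw [if_neg hx, add_zero]
      by_cases hxM : x ∈ M
      · rw [hn x hxM k hk hx hk0]
      · rw [relevant_vanish hfrob hξ hr' hxM, map_zero, mul_zero, mul_zero]
  rw [Finset.sum_congr rfl (fun x _ => hterm x), Finset.sum_add_distrib, ← Finset.mul_sum,
    ← map_sum, relevant_sum_eq_zero hξ hr', map_zero, mul_zero, zero_add,
    Finset.sum_ite_eq' Finset.univ (1 : N), if_pos (Finset.mem_univ _), mul_eq_zero] at h0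
  rcases h0 with h0 | h0
  · exact hk1 (sub_eq_zero.1 h0).symm
  · exact H26.irr_one_ne_zero ⟨ξ, hξ⟩ (by simpa using h0)

end Kernel

section TIFN

variable {G : Type*} [Group G] [Fintype G] (K : Subgroup G)

/-- In the normaliser, the kernel induces all its non-principal characters irreducibly. -/
theorem tifn_inducesIrr [Fintype ↥(Subgroup.normalizer (K : Set G))]
    [(K.subgroupOf (Subgroup.normalizer (K : Set G))).Normal]
    (hC : ∀ k ∈ K, k ≠ 1 → Subgroup.centralizer ({k} : Set G) ≤ K) :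
    InducesIrr (K.subgroupOf (Subgroup.normalizer (K : Set G))) := by
  intro θ hθ hθ1
  have hcop : (Nat.card (K.subgroupOf (Subgroup.normalizer (K : Set G)))).Coprime
      (K.subgroupOf (Subgroup.normalizer (K : Set G))).index := by
    rw [Nat.card_congr (Subgroup.subgroupOfEquivOfLe Subgroup.le_normalizer).toEquiv]
    exact coprime_card_index_normalizer_of_centralizer_le K hC
  obtain ⟨H, hH⟩ := Subgroup.exists_right_complement'_of_coprime hcop
  refine S0171.result _ H (disjoint_iff.1 hH.disjoint) hH.sup_eq_top ?_ θ hθ hθ1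
  intro h hh hne k hk hcomm
  by_contra hk1
  refine hne (Subgroup.mem_bot.1 ?_)
  rw [← disjoint_iff.1 hH.disjoint]
  refine ⟨Subgroup.mem_subgroupOf.2 (hC k (Subgroup.mem_subgroupOf.1 hk) ?_
    (Subgroup.mem_centralizer_singleton_iff.2 ?_)), hh⟩
  · exact fun e => hk1 (Subtype.ext e)
  · exact congrArg Subtype.val hcomm

omit [Fintype G] in
/-- The kernel is proper in the normaliser. -/
theorem tifn_kernel_ne_top (hlt : K < Subgroup.normalizer (K : Set G)) :
    K.subgroupOf (Subgroup.normalizer (K : Set G)) ≠ ⊤ := by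
  intro h
  exact hlt.not_ge (Subgroup.subgroupOf_eq_top.1 h)

variable [Fintype ↥(Subgroup.normalizer (K : Set G))]
  {S : Set (↥(Subgroup.normalizer (K : Set G)) → ℂ)}
  {star : (↥(Subgroup.normalizer (K : Set G)) → ℂ) → (G → ℂ)}

/-- The difference of degree-weighted relevant characters is sent to the induced function. -/
theorem star_weighted (hS : ∀ χ ∈ S, Cfsg.IsIrrCharacter ↥(Subgroup.normalizer (K : Set G)) χ)
    (hstar : Cfsg.IsLinearIsometryOn (Cfsg.zspan S) star)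
    (hext : ∀ α ∈ Cfsg.zspanOn S ({1}ᶜ : Set ↥(Subgroup.normalizer (K : Set G))),
      star α = Cfsg.indFun (Subgroup.normalizer (K : Set G)) α)
    {χ ξ : ↥(Subgroup.normalizer (K : Set G)) → ℂ} (hχ : χ ∈ S) (hξ : ξ ∈ S) :
    Cfsg.indFun (Subgroup.normalizer (K : Set G)) ((ξ 1) • χ - (χ 1) • ξ) =
      (ξ 1) • star χ - (χ 1) • star ξ := by
  obtain ⟨a, -, ha⟩ := H57.irr_degree (hS χ hχ)
  obtain ⟨b, -, hb⟩ := H57.irr_degree (hS ξ hξ)
  have hc : ∀ (n : ℕ) (f : ↥(Subgroup.normalizer (K : Set G)) → ℂ), (n : ℂ) • f = (n : ℤ) • f := by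
    intro n f
    rw [← Int.cast_smul_eq_zsmul ℂ, Int.cast_natCast]
  have h1 : (ξ 1) • χ - (χ 1) • ξ = (b : ℤ) • χ - (a : ℤ) • ξ := by rw [ha, hb, hc, hc]
  have m1 : (b : ℤ) • χ ∈ Cfsg.zspan S := H57.zspan_zsmul (H57.zspan_subset_of_mem hχ) _
  have m2 : (a : ℤ) • ξ ∈ Cfsg.zspan S := H57.zspan_zsmul (H57.zspan_subset_of_mem hξ) _
  rw [h1, ← hext _ (H57.mem_degZero.2 ⟨H57.zspan_sub m1 m2, ?_⟩),
    H57.iso_zspan_sub hstar m1 m2, hstar.2.1 χ (H57.zspan_subset_of_mem hχ),
    hstar.2.1 ξ (H57.zspan_subset_of_mem hξ), ha, hb]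
  · rw [← Int.cast_smul_eq_zsmul ℂ (b : ℤ), ← Int.cast_smul_eq_zsmul ℂ (a : ℤ), Int.cast_natCast,
      Int.cast_natCast]
  · simp only [Pi.sub_apply, Pi.smul_apply, zsmul_eq_mul, Pi.mul_apply, Pi.intCast_apply, ha, hb,
      Int.cast_natCast, Pi.natCast_apply]
    ring

/-- Restriction of a generalised character to a subgroup. -/
theorem gen_restrict {ψ : G → ℂ} (hψ : Cfsg.IsGeneralizedCharacter G ψ) (H : Subgroup G) :
    Cfsg.IsGeneralizedCharacter H (fun h : H => ψ h) := by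
  obtain ⟨a, b, ha, hb, rfl⟩ := hψ
  exact ⟨_, _, H26.isCharacter_comp ha H.subtype, H26.isCharacter_comp hb H.subtype, rfl⟩

/-- Values of a generalised character of `G` on the non-identity kernel elements, in terms of its
inner products with the images of the relevant characters. -/
theorem restrict_kernel_eq (hS : S = {χ : ↥(Subgroup.normalizer (K : Set G)) → ℂ |
      Cfsg.IsIrrCharacter ↥(Subgroup.normalizer (K : Set G)) χ ∧
        ∃ k : ↥(Subgroup.normalizer (K : Set G)), (k : G) ∈ K ∧ χ k ≠ χ 1})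
    (hne : S.Nonempty) (hstar : Cfsg.IsLinearIsometryOn (Cfsg.zspan S) star)
    (hext : ∀ α ∈ Cfsg.zspanOn S ({1}ᶜ : Set ↥(Subgroup.normalizer (K : Set G))),
      star α = Cfsg.indFun (Subgroup.normalizer (K : Set G)) α)
    {ψ : G → ℂ} (hψ : Cfsg.IsGeneralizedCharacter G ψ) :
    ∃ C : ℚ, ∀ k : ↥(Subgroup.normalizer (K : Set G)), (k : G) ∈ K → k ≠ 1 →
      ψ k = ∑ᶠ χ ∈ S, Cfsg.classInner ψ (star χ) * χ k + (C : ℂ) := by
  classical
  have hSirr : ∀ χ ∈ S, Cfsg.IsIrrCharacter ↥(Subgroup.normalizer (K : Set G)) χ := fun χ hχ => by rw [hS] at hχ; exact hχ.1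
  have hψc := H57.gen_classFunction hψ
  have hψN := gen_restrict hψ (Subgroup.normalizer (K : Set G))
  set r : ↥(Subgroup.normalizer (K : Set G)) → ℂ := fun x => ψ x with hr
  have hrel : ∀ χ ∈ S, ∀ ξ ∈ S, ξ 1 * (Cfsg.classInner r χ - Cfsg.classInner ψ (star χ)) =
      χ 1 * (Cfsg.classInner r ξ - Cfsg.classInner ψ (star ξ)) := by
    intro χ hχ ξ hξ
    obtain ⟨a, -, ha⟩ := H57.irr_degree (hSirr χ hχ)
    obtain ⟨b, -, hb⟩ := H57.irr_degree (hSirr ξ hξ)
    have h := congrArg (Cfsg.classInner ψ) (star_weighted K hSirr hstar hext hχ hξ)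
    rw [H25.classInner_indFun_right (Subgroup.normalizer (K : Set G)) _ ψ hψc] at h
    simp only [H26.classInner_sub_right, H26.classInner_smul_right, ha, hb, map_natCast] at h
    rw [ha, hb]
    linear_combination h
  obtain ⟨χ₀, hχ₀⟩ := hne
  have hint : ∀ χ ∈ S, ∃ n : ℤ, Cfsg.classInner r χ - Cfsg.classInner ψ (star χ) = n := by
    intro χ hχ
    obtain ⟨u, hu⟩ := H57.gen_inner_int hψN (H57.gen_of_irr (hSirr χ hχ))
    obtain ⟨v, hv⟩ := H57.gen_inner_int hψ (hstar.2.2.2 χ (H57.zspan_subset_of_mem hχ))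
    exact ⟨u - v, by rw [hu, hv, Int.cast_sub]⟩
  obtain ⟨n₀, hn₀⟩ := hint χ₀ hχ₀
  obtain ⟨d₀, hd₀, hd₀'⟩ := H57.irr_degree (hSirr χ₀ hχ₀)
  have hdeg : ∀ φ : Cfsg.IrrCharacter ↥(Subgroup.normalizer (K : Set G)), ∃ d : ℕ, φ.1 1 = d := fun φ =>
    ⟨_, (H57.irr_degree φ.2).choose_spec.2⟩
  choose d hd using hdeg
  have hcoef : ∀ φ : Cfsg.IrrCharacter ↥(Subgroup.normalizer (K : Set G)), ∃ u : ℤ, Cfsg.classInner r φ.1 = u := fun φ =>
    H57.gen_inner_int hψN (H57.gen_of_irr φ.2)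
  choose u hu using hcoef
  let sS := Finset.univ.filter fun φ : Cfsg.IrrCharacter ↥(Subgroup.normalizer (K : Set G)) => φ.1 ∈ S
  let sI := Finset.univ.filter fun φ : Cfsg.IrrCharacter ↥(Subgroup.normalizer (K : Set G)) => φ.1 ∉ S
  refine ⟨∑ φ ∈ sI, ((u φ : ℚ) * d φ - (n₀ : ℚ) / d₀ * (d φ : ℚ) ^ 2), fun k hkK hk1 => ?_⟩
  have hexp := congrFun (H26.class_function_expansion r (H57.gen_classFunction hψN)) k
  have hreg := congrFun (H26.char_leftRegular_eq_sum (G := ↥(Subgroup.normalizer (K : Set G)))) k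
  rw [H26.char_leftRegular, if_neg hk1] at hreg
  simp only [Finset.sum_apply, Pi.smul_apply, smul_eq_mul] at hexp hreg
  rw [← Finset.sum_filter_add_sum_filter_not Finset.univ (fun φ : Cfsg.IrrCharacter ↥(Subgroup.normalizer (K : Set G)) => φ.1 ∈ S)]
    at hexp hreg
  have hI : ∀ φ ∈ sI, φ.1 k = d φ := by
    intro φ hφ
    rw [← hd]
    by_contra hne'
    exact (Finset.mem_filter.1 hφ).2 (by rw [hS]; exact ⟨φ.2, k, hkK, hne'⟩)
  have hfs : ∑ᶠ χ ∈ S, Cfsg.classInner ψ (star χ) * χ k =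
      ∑ φ ∈ sS, Cfsg.classInner ψ (star φ.1) * φ.1 k := by
    have hset : S = ↑(sS.map (Function.Embedding.subtype _)) := by
      ext χ
      constructor
      · intro hχ
        exact Finset.mem_map.2 ⟨⟨χ, hSirr χ hχ⟩, Finset.mem_filter.2 ⟨Finset.mem_univ _, hχ⟩, rfl⟩
      · intro hχ
        obtain ⟨φ, hφ, rfl⟩ := Finset.mem_map.1 hχ
        exact (Finset.mem_filter.1 hφ).2
    rw [finsum_mem_congr hset fun x _ => rfl, finsum_mem_coe_finset, Finset.sum_map]
    rfl
  have hSterm : ∀ φ ∈ sS, Cfsg.classInner r φ.1 * φ.1 k =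
      Cfsg.classInner ψ (star φ.1) * φ.1 k + ((n₀ : ℂ) / d₀) * (φ.1 1 * φ.1 k) := by
    intro φ hφ
    have h := hrel φ.1 (Finset.mem_filter.1 hφ).2 χ₀ hχ₀
    rw [hn₀, hd₀'] at h
    have hd0 : (d₀ : ℂ) ≠ 0 := Nat.cast_ne_zero.2 hd₀.ne'
    field_simp
    linear_combination (φ.1 k) * h
  have hIterm : ∀ φ ∈ sI, Cfsg.classInner r φ.1 * φ.1 k = (u φ : ℂ) * d φ := by
    intro φ hφ; rw [hu, hI φ hφ]
  have hIreg : ∀ φ ∈ sI, φ.1 1 * φ.1 k = (d φ : ℂ) ^ 2 := by
    intro φ hφ; rw [hd, hI φ hφ, sq]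
  rw [Finset.sum_congr rfl hSterm, Finset.sum_congr rfl hIterm, Finset.sum_add_distrib,
    ← Finset.mul_sum] at hexp
  rw [Finset.sum_congr rfl hIreg] at hreg
  show r k = _
  rw [hfs, hexp]
  push_cast
  rw [Finset.sum_sub_distrib, ← Finset.mul_sum]
  linear_combination (-((n₀ : ℂ) / d₀)) * hreg

/-- The image of a relevant character differs from it by a rational constant on the kernel. -/
theorem star_sub_const (hS : S = {χ : ↥(Subgroup.normalizer (K : Set G)) → ℂ |
      Cfsg.IsIrrCharacter ↥(Subgroup.normalizer (K : Set G)) χ ∧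
        ∃ k : ↥(Subgroup.normalizer (K : Set G)), (k : G) ∈ K ∧ χ k ≠ χ 1})
    (hstar : Cfsg.IsLinearIsometryOn (Cfsg.zspan S) star)
    (hext : ∀ α ∈ Cfsg.zspanOn S ({1}ᶜ : Set ↥(Subgroup.normalizer (K : Set G))),
      star α = Cfsg.indFun (Subgroup.normalizer (K : Set G)) α)
    {χ : ↥(Subgroup.normalizer (K : Set G)) → ℂ} (hχ : χ ∈ S) :
    ∃ C : ℚ, ∀ k : ↥(Subgroup.normalizer (K : Set G)), (k : G) ∈ K → k ≠ 1 →
      star χ k = χ k + (C : ℂ) := by
  classical
  have hSirr : ∀ χ ∈ S, Cfsg.IsIrrCharacter ↥(Subgroup.normalizer (K : Set G)) χ :=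
    fun χ hχ => by rw [hS] at hχ; exact hχ.1
  obtain ⟨C, hC⟩ := restrict_kernel_eq K hS ⟨χ, hχ⟩ hstar hext
    (hstar.2.2.2 χ (H57.zspan_subset_of_mem hχ))
  refine ⟨C, fun k hk hk1 => ?_⟩
  rw [hC k hk hk1]
  congr 1
  rw [finsum_mem_congr rfl (g := fun ξ => if ξ = χ then χ k else 0) ?_]
  · rw [finsum_mem_def, finsum_eq_single _ χ]
    · simp [hχ]
    · intro x hx
      simp [Set.indicator, hx]
  · intro ξ hξ
    rw [hstar.2.2.1 χ (H57.zspan_subset_of_mem hχ) ξ (H57.zspan_subset_of_mem hξ),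
      H27.classInner_irr_eq_ite (hSirr χ hχ) (hSirr ξ hξ)]
    by_cases h : ξ = χ
    · subst h; simp
    · rw [if_neg (Ne.symm h), if_neg h, zero_mul]

end TIFN

end Cfsg.Agent.H38
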